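import Cfsg.Agent.Lib.TwStem.Core

/-!
# Commuting lifts from a torus witness
-/

set_option autoImplicit false

namespace Cfsg.Agent.Lib.TwE6St

open Cfsg.Agent.Lib.TwStem
open scoped commutatorElement

variable {Γ G : Type*} [Group Γ] [Group G] {σ : Γ →* G}

/-- If `t` centralises `X` and acts without fixed points on `Y`, and `X`, `Y` commute in `G`, their preimages commute. -/
theorem comm_of_wit (hE : CE σ) {X Y : Subgroup G} [Finite Y] {t : G} (hcX : ∀ x ∈ X, t * x * t⁻¹ = x)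
    (hnY : ∀ y ∈ Y, t * y * t⁻¹ ∈ Y) (hfp : ∀ y ∈ Y, t * y * t⁻¹ = y → y = 1)
    (hXY : ∀ x ∈ X, ∀ y ∈ Y, x * y = y * x) : ∀ u v : Γ, σ u ∈ X → σ v ∈ Y → u * v = v * u := by
  intro u v hu hv
  obtain ⟨H, rfl⟩ := hE.surj t
  -- the map on `Y`
  let ψ : Y → Y := fun y => ⟨σ H * y.1 * (σ H)⁻¹ * y.1⁻¹, Y.mul_mem (hnY _ y.2) (Y.inv_mem y.2)⟩
  have hψinj : Function.Injective ψ := by
    rintro ⟨a, ha⟩ ⟨b, hb⟩ e
    have e' : σ H * a * (σ H)⁻¹ * a⁻¹ = σ H * b * (σ H)⁻¹ * b⁻¹ := congrArg Subtype.val e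
    have h1 : σ H * (b⁻¹ * a) * (σ H)⁻¹ = b⁻¹ * a := by
      have e2 : σ H * (b⁻¹ * a) * (σ H)⁻¹ = (σ H * b * (σ H)⁻¹)⁻¹ * (σ H * a * (σ H)⁻¹) := by group
      rw [e2]
      have e3 : σ H * a * (σ H)⁻¹ = σ H * b * (σ H)⁻¹ * (b⁻¹ * a) := by
        calc σ H * a * (σ H)⁻¹ = (σ H * a * (σ H)⁻¹ * a⁻¹) * a := by group
          _ = (σ H * b * (σ H)⁻¹ * b⁻¹) * a := by rw [e']
          _ = _ := by group
      rw [e3]
      group
    have h2 := hfp _ (Y.mul_mem (Y.inv_mem hb) ha) h1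
    apply Subtype.ext
    show a = b
    have : b * (b⁻¹ * a) = b := by rw [h2, mul_one]
    simpa using this
  have hψsurj : Function.Surjective ψ := Finite.injective_iff_surjective.1 hψinj
  obtain ⟨⟨y0, hy0⟩, e⟩ := hψsurj ⟨σ v, hv⟩
  obtain ⟨v0, rfl⟩ := hE.surj y0
  have e' : σ H * σ v0 * (σ H)⁻¹ * (σ v0)⁻¹ = σ v := congrArg Subtype.val e
  -- central elements
  have hcen : ∀ a b : Γ, σ a ∈ X → σ b ∈ Y → ∀ w : Γ, ⁅a, b⁆ * w = w * ⁅a, b⁆ := by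
    intro a b ha hb w
    exact hE.comm_cen (hXY _ ha _ hb) w
  have hy1 : σ (H * v0 * H⁻¹) ∈ Y := by
    rw [map_mul, map_mul, map_inv]
    exact hnY _ hy0
  have hv0i : σ v0⁻¹ ∈ Y := by
    rw [map_inv]
    exact Y.inv_mem hy0
  -- `⁅u, H v0 H⁻¹⁆ = ⁅u, v0⁆`
  have e1 : ⁅u, H * v0 * H⁻¹⁆ = ⁅u, v0⁆ := by
    have h2 : σ (H * u * H⁻¹) = σ u := by
      rw [map_mul, map_mul, map_inv]
      exact hcX _ hu
    have h3 := hE.comm_eq h2 (rfl : σ (H * v0 * H⁻¹) = σ (H * v0 * H⁻¹))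
    have h4 : ⁅H * u * H⁻¹, H * v0 * H⁻¹⁆ = H * ⁅u, v0⁆ * H⁻¹ := by
      rw [commutatorElement_def, commutatorElement_def]
      group
    rw [← h3, h4, mul_assoc H, hcen u v0 hu hy0 H⁻¹]
    group
  -- `⁅u, a b⁆ = ⁅u, a⁆ ⁅u, b⁆`
  have hmul : ∀ a b : Γ, σ b ∈ Y → ⁅u, a * b⁆ = ⁅u, a⁆ * ⁅u, b⁆ := by
    intro a b hb
    have h5 : ⁅u, a * b⁆ = ⁅u, a⁆ * (a * ⁅u, b⁆ * a⁻¹) := by
      rw [commutatorElement_def, commutatorElement_def, commutatorElement_def]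
      group
    rw [h5, mul_assoc a, hcen u b hu hb a⁻¹]
    group
  have hinv : ⁅u, v0⁻¹⁆ = ⁅u, v0⁆⁻¹ := by
    have h6 := hmul v0⁻¹ v0 hy0
    rw [inv_mul_cancel] at h6
    have h7 : ⁅u, (1 : Γ)⁆ = 1 := by simp
    rw [h7] at h6
    exact eq_inv_of_mul_eq_one_left h6.symm
  -- `u` commutes with `[H, v0]`
  have h8 : ⁅u, H * v0 * H⁻¹ * v0⁻¹⁆ = 1 := by
    rw [hmul _ _ hv0i, e1, hinv, mul_inv_cancel]
  have h9 : σ (H * v0 * H⁻¹ * v0⁻¹) = σ v := by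
    rw [map_mul, map_mul, map_mul, map_inv, map_inv, e']
  have h10 : ⁅u, v⁆ = 1 := by
    rw [← hE.comm_eq (rfl : σ u = σ u) h9, h8]
  have h11 : u * v * u⁻¹ * v⁻¹ = 1 := h10
  calc u * v = (u * v * u⁻¹ * v⁻¹) * (v * u) := by group
    _ = v * u := by rw [h11, one_mul]

/-- If `X` consists of commutators of `Xa` and `Xb` and the preimage of `X` commutes with the preimages of `Xa` and `Xb`,
it is abelian. -/
theorem lc_of_comm (hE : CE σ) {X Xa Xb : Subgroup G} (h : ∀ x ∈ X, ∃ a ∈ Xa, ∃ b ∈ Xb, x = ⁅a, b⁆)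
    (ha : ∀ u v : Γ, σ u ∈ X → σ v ∈ Xa → u * v = v * u) (hb : ∀ u v : Γ, σ u ∈ X → σ v ∈ Xb → u * v = v * u) :
    ∀ u v : Γ, σ u ∈ X → σ v ∈ X → u * v = v * u := by
  intro u v hu hv
  obtain ⟨a, hxa, b, hxb, e⟩ := h _ hv
  obtain ⟨a', rfl⟩ := hE.surj a
  obtain ⟨b', rfl⟩ := hE.surj b
  have h1 : σ (⁅a', b'⁆) = σ v := by
    rw [e, map_commutatorElement]
  obtain ⟨z, hz, rfl⟩ : ∃ z, σ z = 1 ∧ v = ⁅a', b'⁆ * z :=
    ⟨⁅a', b'⁆⁻¹ * v, by rw [map_mul, map_inv, h1, inv_mul_cancel], by group⟩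
  have h2 := ha u a' hu hxa
  have h3 := hb u b' hu hxb
  have ca : Commute u a' := h2
  have cb : Commute u b' := h3
  have cc : Commute u ⁅a', b'⁆ := by
    rw [commutatorElement_def]
    exact ((ca.mul_right cb).mul_right ca.inv_right).mul_right cb.inv_right
  have cz : Commute u z := (hE.cen z hz u).symm
  exact (cc.mul_right cz).eq

end Cfsg.Agent.Lib.TwE6St
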