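import Cfsg.Agent.Lib.TwE6St.Tab
import Cfsg.Agent.Lib.TwE6St.Lc
import Cfsg.Agent.Lib.TwStem.Lift
import Cfsg.Agent.Lib.TwStem.Base
import Cfsg.Agent.Lib.Chev.TwE6P

/-!
# The relative root system of `²E₆` and the torus witnesses
-/

set_option autoImplicit false
set_option linter.unusedSectionVars false
set_option linter.unusedVariables false

namespace Cfsg.Agent.Lib.TwE6St

open Cfsg Cfsg.Lie Cfsg.Agent.Lib.Chev Cfsg.Agent.Lib.Chev.TwE6 Cfsg.Agent.Lib.TwStem Equiv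
open scoped commutatorElement

variable {K : Type*} [Field K] [Fintype K] (f : K ≃+* K)

/-- The twisted group, as a structure. -/
noncomputable abbrev AA : TwG (τ f) := (sc f).twG

theorem relT : RelT (τ f) rel 24 where
  lt := rel_lt
  pos := rel_pos
  neg := rel_neg
  rho r := rel_rho r r.2
  orb := by
    intro r r' e
    rcases rel_orb r r.2 r' r'.2 e with h | h
    · exact ⟨0, Fin.ext h.symm⟩
    · exact ⟨1, Fin.ext h.symm⟩
  comm1 := rel_comm1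
  comm2 := rel_comm2

/-- The parameters of a torus element. -/
noncomputable def cV (u : Kˣ) (v : ℤ × ℤ × ℤ × ℤ × ℤ × ℤ) : Fin chevE6.rank → Kˣ := fun j =>
  if (j : ℕ) = 0 then u ^ v.1 * unitsF f u ^ v.2.1
  else if (j : ℕ) = 1 then (u * unitsF f u) ^ v.2.2.2.2.1
  else if (j : ℕ) = 2 then u ^ v.2.2.1 * unitsF f u ^ v.2.2.2.1
  else if (j : ℕ) = 3 then (u * unitsF f u) ^ v.2.2.2.2.2
  else if (j : ℕ) = 4 then unitsF f u ^ v.2.2.1 * u ^ v.2.2.2.1
  else unitsF f u ^ v.1 * u ^ v.2.1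

variable {f}

theorem cV_fixed (hf2 : ∀ t, f^[2] t = t) (u : Kˣ) (v : ℤ × ℤ × ℤ × ℤ × ℤ × ℤ) : (sc f).FTh (cV f u v) = cV f u v := by
  have hu := unitsF2 hf2 u
  rw [fixed_iff]
  refine ⟨?_, ?_, ?_, ?_, ?_, ?_⟩ <;> simp [cV, map_zpow, hu, mul_comm]

theorem chiT_expand (c : Fin chevE6.rank → Kˣ) (r : ℕ) :
    chiT chevE6 c r = c ⟨0, by decide⟩ ^ chevE6.cartan 0 r * c ⟨1, by decide⟩ ^ chevE6.cartan 1 r *
      c ⟨2, by decide⟩ ^ chevE6.cartan 2 r * c ⟨3, by decide⟩ ^ chevE6.cartan 3 r *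
      c ⟨4, by decide⟩ ^ chevE6.cartan 4 r * c ⟨5, by decide⟩ ^ chevE6.cartan 5 r :=
  Fin.prod_univ_six (fun i : Fin 6 => c i ^ chevE6.cartan i r)

theorem chi_cV (u : Kˣ) (v : ℤ × ℤ × ℤ × ℤ × ℤ × ℤ) (r : ℕ) :
    chiT chevE6 (cV f u v) r = u ^ eA r v * unitsF f u ^ eB r v := by
  rw [chiT_expand]
  simp only [cV, eA, eB]
  simp only [Nat.reduceEqDiff, if_true, if_false, OfNat.ofNat_ne_one, OfNat.one_ne_ofNat, OfNat.zero_ne_ofNat,
    OfNat.ofNat_ne_zero, one_ne_zero, zero_ne_one]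
  generalize unitsF f u = F
  generalize chevE6.cartan 0 r = C0
  generalize chevE6.cartan 1 r = C1
  generalize chevE6.cartan 2 r = C2
  generalize chevE6.cartan 3 r = C3
  generalize chevE6.cartan 4 r = C4
  generalize chevE6.cartan 5 r = C5
  obtain ⟨a, a', a2, a2', b1, b3⟩ := v
  simp only
  have g1 : ∀ a a' C : ℤ, (u ^ a * F ^ a') ^ C = u ^ (a * C) * F ^ (a' * C) := by
    intro a a' C
    rw [mul_zpow, zpow_mul, zpow_mul]
  have g2 : ∀ a a' C : ℤ, (F ^ a * u ^ a') ^ C = u ^ (a' * C) * F ^ (a * C) := by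
    intro a a' C
    rw [mul_zpow, zpow_mul, zpow_mul, mul_comm]
  have g3 : ∀ b C : ℤ, ((u * F) ^ b) ^ C = u ^ (b * C) * F ^ (b * C) := by
    intro b C
    rw [mul_zpow, mul_zpow, zpow_mul, zpow_mul]
  have gm : ∀ x y x' y' : ℤ, u ^ x * F ^ y * (u ^ x' * F ^ y') = u ^ (x + x') * F ^ (y + y') := by
    intro x y x' y'
    rw [zpow_add, zpow_add]
    simp only [mul_comm, mul_left_comm, mul_assoc]
  rw [g1, g2, g1, g2, g3, g3, gm, gm, gm, gm, gm]
  congr 2 <;> ring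

/-- The torus element. -/
noncomputable def tV (hf2 : ∀ t, f^[2] t = t) (u : Kˣ) (v : ℤ × ℤ × ℤ × ℤ × ℤ × ℤ) : ↥(AA f).G1 :=
  ⟨tor RootE6T.R chevE6 (cV f u v), hmem f _ (cV_fixed hf2 u v)⟩

theorem tV_mem (hf2 : ∀ t, f^[2] t = t) (u : Kˣ) (v : ℤ × ℤ × ℤ × ℤ × ℤ × ℤ) : tV hf2 u v ∈ GT (AA f) := by
  rw [mem_GT]
  exact hF.tor_mem_diagonal _

theorem cls_lt {j : ℕ} (hj : j < 24) {r : ℕ} (hr : r ∈ cls j) : r < chevE6.nroots := ((cls_iff j hj r).2 hr).1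

theorem cls_pos {j : ℕ} (hj : j < 24) {r : ℕ} (hr : r ∈ cls j) : RootE6T.R.N ≤ r ∧ r < chevE6.nroots := by
  obtain ⟨h1, h2⟩ := (cls_iff j hj r).2 hr
  exact ⟨(rel_pos r h1).2 (by omega), h1⟩

theorem cls_nd : ∀ j < 24, (cls j).Nodup := by decide +kernel

theorem cls_comm0 : ∀ j < 24, ∀ r ∈ cls j, ∀ s ∈ cls j, s ≠ r → s ≠ chevE6.neg r ∧ chevE6.commTerms r s = [] := by
  decide +kernel

theorem cls_comm {j : ℕ} (hj : j < 24) : hF.CommL K (cls j) := by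
  intro r hr s hs a b
  by_cases e : s = r
  · subst e
    show hF.c.xG _ a * hF.c.xG _ b = hF.c.xG _ b * hF.c.xG _ a
    rw [hF.c.xG_add, hF.c.xG_add, add_comm]
  · obtain ⟨h1, h2⟩ := cls_comm0 j hj r hr s hs e
    exact Full.xG_commute_of_nil (hF := hF) (cls_lt hj hr) (cls_lt hj hs) e h1 h2 a b

/-- A torus element with trivial values centralises the relative root group. -/
theorem fix_of_chi {c : Fin chevE6.rank → Kˣ} (hc : tor RootE6T.R chevE6 c ∈ (AA f).G1) {k : ℕ}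
    (h : ∀ r < chevE6.nroots, rel r = k → chiT chevE6 c r = 1) {x : ↥(AA f).G1} (hx : x ∈ GX (AA f) rel k) :
    (⟨_, hc⟩ : ↥(AA f).G1) * x * (⟨_, hc⟩ : ↥(AA f).G1)⁻¹ = x := by
  apply Subtype.ext
  have h1 := (mem_GX.1 hx).2
  show tor RootE6T.R chevE6 c * x.1 * (tor RootE6T.R chevE6 c)⁻¹ = x.1
  have key : ∀ y ∈ RO chevE6 K rel k, tor RootE6T.R chevE6 c * y * (tor RootE6T.R chevE6 c)⁻¹ = y := by
    intro y hy
    unfold RO Full.rootClosure at hy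
    induction hy using Subgroup.closure_induction with
    | mem y hy =>
      obtain ⟨r, t, ⟨h2, h3⟩, e⟩ := hy
      rw [hF.c.eq_xG e, hF.tor_conj_xG c h2, h r h2 h3]
      simp
    | one => simp
    | mul a b _ _ ha hb =>
      have e : tor RootE6T.R chevE6 c * (a * b) * (tor RootE6T.R chevE6 c)⁻¹ =
          (tor RootE6T.R chevE6 c * a * (tor RootE6T.R chevE6 c)⁻¹) * (tor RootE6T.R chevE6 c * b * (tor RootE6T.R chevE6 c)⁻¹) := by group
      rw [e, ha, hb]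
    | inv a _ ha =>
      have e : tor RootE6T.R chevE6 c * a⁻¹ * (tor RootE6T.R chevE6 c)⁻¹ = (tor RootE6T.R chevE6 c * a * (tor RootE6T.R chevE6 c)⁻¹)⁻¹ := by group
      rw [e, ha]
  exact key _ h1

/-- A torus element with nontrivial values acts without fixed points on a positive relative root group. -/
theorem fpf_of_chi {c : Fin chevE6.rank → Kˣ} (hc : tor RootE6T.R chevE6 c ∈ (AA f).G1) {k : ℕ} (hk : k < 24)
    (h : ∀ r ∈ cls k, chiT chevE6 c r ≠ 1) {x : ↥(AA f).G1} (hx : x ∈ GX (AA f) rel k)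
    (e : (⟨_, hc⟩ : ↥(AA f).G1) * x * (⟨_, hc⟩ : ↥(AA f).G1)⁻¹ = x) : x = 1 := by
  have h1 := (mem_GX.1 hx).2
  obtain ⟨t, ht⟩ := hF.exists_wL_of_mem (cls_comm hk) (cls_nd k hk) (cls_iff k hk) h1
  have e1 : tor RootE6T.R chevE6 c * x.1 * (tor RootE6T.R chevE6 c)⁻¹ = x.1 := congrArg Subtype.val e
  rw [ht, hF.tor_conj_wL c (fun r hr => cls_lt hk hr)] at e1
  have h2 := hF.wL_inj (cls_comm hk) (cls_nd k hk) (fun r hr => cls_pos hk hr) e1
  have h3 : ∀ r ∈ cls k, t r = 0 := by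
    intro r hr
    have h4 := h2 r hr
    have h5 : (((chiT chevE6 c r : Kˣ) : K) - 1) * t r = 0 := by
      rw [sub_mul, h4, one_mul, sub_self]
    rcases mul_eq_zero.1 h5 with h6 | h6
    · exfalso
      apply h r hr
      apply Units.ext
      simpa [sub_eq_zero] using h6
    · exact h6
  apply Subtype.ext
  rw [ht, hF.wL_congr (t' := fun _ => 0) h3, hF.wL_zero]
  rfl

/-- The value of a torus element at a good pair of exponents. -/
theorem isG_ne {q : ℕ} (hq3 : 3 ≤ q) (hK : Fintype.card K = q ^ 2) (hf : ∀ t, f t = t ^ q) {u : Kˣ}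
    (hu : orderOf u = q ^ 2 - 1) {r : ℕ} {v : ℤ × ℤ × ℤ × ℤ × ℤ × ℤ} (h : isG r v) :
    u ^ eA r v * unitsF f u ^ eB r v ≠ 1 := by
  have hfu : unitsF f u = u ^ q := by
    apply Units.ext
    rw [unitsF_val, hf, Units.val_pow_eq_pow_val]
  have hle : q + 1 < q ^ 2 - 1 := by
    have : q ^ 2 = q * q := sq q
    have h9 : 3 * q ≤ q * q := Nat.mul_le_mul_right q hq3
    omega
  have h1 : u ≠ 1 := by
    rintro rfl
    rw [orderOf_one] at hu
    omega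
  have h2 : unitsF f u ≠ 1 := by
    intro e
    apply h1
    apply Units.ext
    have : f u = f 1 := by
      rw [map_one]
      exact congrArg Units.val e
    exact f.injective this
  have h3 : u * unitsF f u ≠ 1 := by
    rw [hfu, ← pow_succ']
    intro e
    have := Nat.le_of_dvd (by omega) (orderOf_dvd_of_pow_eq_one e)
    omega
  have h4 : u ≠ unitsF f u := by
    rw [hfu]
    intro e
    have h5 : u ^ (q - 1) = 1 := by
      have h6 : u ^ (q - 1) * u = 1 * u := by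
        rw [← pow_succ, Nat.sub_add_cancel (by omega), one_mul]
        exact e.symm
      exact mul_right_cancel h6
    have := Nat.le_of_dvd (by omega) (orderOf_dvd_of_pow_eq_one h5)
    omega
  rcases h with ⟨e1, e2⟩ | ⟨e1, e2⟩ | ⟨e1, e2⟩ | ⟨e1, e2⟩ | ⟨e1, e2⟩ | ⟨e1, e2⟩ | ⟨e1, e2⟩ | ⟨e1, e2⟩ <;> rw [e1, e2]
  · simpa using h3
  · intro e
    apply h3
    have : (u * unitsF f u)⁻¹ = 1 := by
      rw [mul_inv_rev, mul_comm]
      simpa using e
    exact inv_eq_one.1 this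
  · simpa using h1
  · simpa using h1
  · simpa using h2
  · simpa using h2
  · intro e
    apply h4
    simp only [zpow_one, zpow_neg] at e
    exact mul_inv_eq_one.1 e
  · intro e
    apply h4
    simp only [zpow_one, zpow_neg] at e
    exact (inv_mul_eq_one.1 e)

/-- The witnesses. -/
theorem wit_T {q : ℕ} (hq3 : 3 ≤ q) (hK : Fintype.card K = q ^ 2) (hf : ∀ t, f t = t ^ q) (hf2 : ∀ t, f^[2] t = t)
    {k s : ℕ} (hks : k < s) (hs : s < 24) :
    ∃ t ∈ GT (AA f), (∀ x ∈ GX (AA f) rel k, t * x * t⁻¹ = x) ∧ (∀ y ∈ GX (AA f) rel s, t * y * t⁻¹ = y → y = 1) ∨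
      (∀ y ∈ GX (AA f) rel s, t * y * t⁻¹ = y) ∧ (∀ x ∈ GX (AA f) rel k, t * x * t⁻¹ = x → x = 1) := by
  classical
  obtain ⟨u, hu⟩ := IsCyclic.exists_generator (α := Kˣ)
  have hord : orderOf u = q ^ 2 - 1 := by
    rw [orderOf_eq_card_of_forall_mem_zpowers hu, Nat.card_eq_fintype_card, Fintype.card_units, hK]
  refine ⟨tV hf2 u (wit k s).2, tV_mem hf2 u _, ?_⟩
  have hk : k < 24 := by omega
  have hmain : ∀ {a : ℕ} {v : ℤ × ℤ × ℤ × ℤ × ℤ × ℤ}, a < 24 → (∀ r ∈ cls a, isZ r v) → ∀ x ∈ GX (AA f) rel a, tV hf2 u v * x * (tV hf2 u v)⁻¹ = x := by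
    intro a v ha h x hx
    refine fix_of_chi (hmem f _ (cV_fixed hf2 u v)) ?_ hx
    intro r hr hra
    rw [chi_cV]
    obtain ⟨e1, e2⟩ := h r ((cls_iff a ha r).1 ⟨hr, hra⟩)
    rw [e1, e2]
    simp
  have hmain2 : ∀ {a : ℕ} {v : ℤ × ℤ × ℤ × ℤ × ℤ × ℤ}, a < 24 → (∀ r ∈ cls a, isG r v) → ∀ x ∈ GX (AA f) rel a, tV hf2 u v * x * (tV hf2 u v)⁻¹ = x → x = 1 := by
    intro a v ha h x hx e
    refine fpf_of_chi (hmem f _ (cV_fixed hf2 u v)) ha ?_ hx e
    intro r hr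
    rw [chi_cV]
    exact isG_ne hq3 hK hf hord (h r hr)
  rcases wit_ok k hk s hs hks with ⟨_, h1, h2⟩ | ⟨_, h1, h2⟩
  · exact Or.inl ⟨hmain hk h1, hmain2 hs h2⟩
  · exact Or.inr ⟨hmain hs h1, hmain2 hk h2⟩

end Cfsg.Agent.Lib.TwE6St
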