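import Cfsg.Agent.Lib.TwE6St.Kern
import Cfsg.Agent.Lib.ChevStemN

/-!
# `²E₆`: the upper bound for the Schur multiplier
-/

set_option autoImplicit false
set_option linter.unusedSectionVars false
set_option linter.unusedVariables false
set_option linter.unusedSimpArgs false

namespace Cfsg.Agent.Lib.TwE6St

open Cfsg Cfsg.Lie Cfsg.Agent.Lib.Chev Cfsg.Agent.Lib.Chev.TwE6 Cfsg.Agent.Lib.TwStem Equiv
open Cfsg.Agent.Lib.SL2Core Cfsg.Agent.Lib.SL2Bor Cfsg.Agent.Lib.StK Cfsg.Agent.Lib.ChevLift Cfsg.Agent.Lib.ChevLift.RD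
open scoped commutatorElement

variable {K : Type*} [Field K] [Fintype K] {f : K ≃+* K}

/-- The diagonal elements of the rank one group, as a homomorphism. -/
noncomputable def DD {d : ℕ} (hd : ∀ t : K, f^[d] t = t) : Kˣ →* SL2 ↥(Sb f d) where
  toFun u := wd (⟨u.1, mem_Sb.2 (hd _)⟩ : ↥(Sb f d)) * wd (-1)
  map_one' := wd1_eq
  map_mul' u v := by
    have h1 : (⟨u.1, mem_Sb.2 (hd _)⟩ : ↥(Sb f d)) ≠ 0 := fun e => u.ne_zero (congrArg Subtype.val e)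
    have h2 : (⟨v.1, mem_Sb.2 (hd _)⟩ : ↥(Sb f d)) ≠ 0 := fun e => v.ne_zero (congrArg Subtype.val e)
    have e : (⟨(u * v : Kˣ).1, mem_Sb.2 (hd _)⟩ : ↥(Sb f d)) = ⟨u.1, mem_Sb.2 (hd _)⟩ * ⟨v.1, mem_Sb.2 (hd _)⟩ := rfl
    rw [e]
    generalize (⟨u.1, mem_Sb.2 (hd _)⟩ : ↥(Sb f d)) = a at h1 ⊢
    generalize (⟨v.1, mem_Sb.2 (hd _)⟩ : ↥(Sb f d)) = b at h2 ⊢
    apply sl2_ext <;> simp [mul_apply2, wd] <;> field_simp <;> ring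

theorem DD_apply {d : ℕ} (hd : ∀ t : K, f^[d] t = t) (u : Kˣ) : DD hd u = wd (⟨u.1, mem_Sb.2 (hd _)⟩ : ↥(Sb f d)) * wd (-1) := rfl

theorem DD_uS {d : ℕ} (hd : ∀ t : K, f^[d] t = t) (c : ↥(Sb f d)) (hc : c ≠ 0) : DD hd (uS c hc) = wd c * wd (-1) := rfl

theorem uS_mk {d : ℕ} (hd : ∀ t : K, f^[d] t = t) (u : Kˣ) (hc : (⟨u.1, mem_Sb.2 (hd _)⟩ : ↥(Sb f d)) ≠ 0) : uS (⟨u.1, mem_Sb.2 (hd _)⟩ : ↥(Sb f d)) hc = u :=
  Units.ext rfl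

theorem mk_ne {d : ℕ} (hd : ∀ t : K, f^[d] t = t) (u : Kˣ) : (⟨u.1, mem_Sb.2 (hd _)⟩ : ↥(Sb f d)) ≠ 0 :=
  fun e => u.ne_zero (congrArg Subtype.val e)

theorem cE_mul (a b l s a' b' l' s' : Kˣ) : cE f a b l s * cE f a' b' l' s' = cE f (a * a') (b * b') (l * l') (s * s') := by
  funext j
  revert j
  refine fin6_cases ?_ ?_ ?_ ?_ ?_ ?_ <;> simp [cE]

theorem cE_one_eq : cE f (1 : Kˣ) 1 1 1 = 1 := by
  funext j
  revert j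
  refine fin6_cases ?_ ?_ ?_ ?_ ?_ ?_ <;> simp [cE]

variable {Γ : Type*} [Group Γ] {σ : Γ →* ↥(sc f).twG.G1}

/-- Decomposition in the lifted torus. -/
theorem Tt_decomp {G : Type*} [Group G] {σ : Γ →* G} {m : ℕ} {X : ℕ → Subgroup G} {T N : Subgroup G} {n : ℕ → G} {s : ℕ → ℕ → ℕ}
    {V : ℕ → Subgroup Γ} {nh : ℕ → Γ} (S : TSys σ 4 m X T N n s V nh) {x : Γ} (hx : x ∈ Tt σ T V 4 m) :
    ∃ t0 ∈ TL σ T V m 0, ∃ t1 ∈ TL σ T V m 1, ∃ t2 ∈ TL σ T V m 2, ∃ t3 ∈ TL σ T V m 3, x = t0 * t1 * t2 * t3 := by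
  have L0 := S.TL_le_Tt (i := 0) (by decide)
  have L1 := S.TL_le_Tt (i := 1) (by decide)
  have L2 := S.TL_le_Tt (i := 2) (by decide)
  have L3 := S.TL_le_Tt (i := 3) (by decide)
  unfold Tt at hx
  induction hx using Subgroup.closure_induction with
  | mem y hy =>
    obtain ⟨i, hi, hy⟩ := hy
    interval_cases i
    · exact ⟨y, hy, 1, Subgroup.one_mem _, 1, Subgroup.one_mem _, 1, Subgroup.one_mem _, by simp⟩
    · exact ⟨1, Subgroup.one_mem _, y, hy, 1, Subgroup.one_mem _, 1, Subgroup.one_mem _, by simp⟩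
    · exact ⟨1, Subgroup.one_mem _, 1, Subgroup.one_mem _, y, hy, 1, Subgroup.one_mem _, by simp⟩
    · exact ⟨1, Subgroup.one_mem _, 1, Subgroup.one_mem _, 1, Subgroup.one_mem _, y, hy, by simp⟩
  | one => exact ⟨1, Subgroup.one_mem _, 1, Subgroup.one_mem _, 1, Subgroup.one_mem _, 1, Subgroup.one_mem _, by simp⟩
  | mul a b _ _ ha hb =>
    obtain ⟨a0, ha0, a1, ha1, a2, ha2, a3, ha3, rfl⟩ := ha
    obtain ⟨b0, hb0, b1, hb1, b2, hb2, b3, hb3, rfl⟩ := hb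
    refine ⟨a0 * b0, Subgroup.mul_mem _ ha0 hb0, a1 * b1, Subgroup.mul_mem _ ha1 hb1, a2 * b2, Subgroup.mul_mem _ ha2 hb2,
      a3 * b3, Subgroup.mul_mem _ ha3 hb3, ?_⟩
    have e1 : a1 * a2 * a3 * b0 = b0 * (a1 * a2 * a3) :=
      S.Tt_comm (Subgroup.mul_mem _ (Subgroup.mul_mem _ (L1 ha1) (L2 ha2)) (L3 ha3)) (L0 hb0)
    have e2 : a2 * a3 * b1 = b1 * (a2 * a3) := S.Tt_comm (Subgroup.mul_mem _ (L2 ha2) (L3 ha3)) (L1 hb1)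
    have e3 : a3 * b2 = b2 * a3 := S.Tt_comm (L3 ha3) (L2 hb2)
    calc a0 * a1 * a2 * a3 * (b0 * b1 * b2 * b3) = a0 * (a1 * a2 * a3 * b0) * b1 * b2 * b3 := by group
      _ = a0 * b0 * a1 * (a2 * a3 * b1) * b2 * b3 := by rw [e1]; group
      _ = a0 * b0 * a1 * b1 * a2 * (a3 * b2) * b3 := by rw [e2]; group
      _ = _ := by rw [e3]; group
  | inv a _ ha =>
    obtain ⟨a0, ha0, a1, ha1, a2, ha2, a3, ha3, rfl⟩ := ha
    refine ⟨a0⁻¹, Subgroup.inv_mem _ ha0, a1⁻¹, Subgroup.inv_mem _ ha1, a2⁻¹, Subgroup.inv_mem _ ha2, a3⁻¹, Subgroup.inv_mem _ ha3, ?_⟩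
    have i0 := Subgroup.inv_mem _ (L0 ha0)
    have i1 := Subgroup.inv_mem _ (L1 ha1)
    have i2 := Subgroup.inv_mem _ (L2 ha2)
    have i3 := Subgroup.inv_mem _ (L3 ha3)
    have e1 : a3⁻¹ * a2⁻¹ * a1⁻¹ * a0⁻¹ = a0⁻¹ * (a3⁻¹ * a2⁻¹ * a1⁻¹) :=
      S.Tt_comm (Subgroup.mul_mem _ (Subgroup.mul_mem _ i3 i2) i1) i0
    have e2 : a3⁻¹ * a2⁻¹ * a1⁻¹ = a1⁻¹ * (a3⁻¹ * a2⁻¹) := S.Tt_comm (Subgroup.mul_mem _ i3 i2) i1
    have e3 : a3⁻¹ * a2⁻¹ = a2⁻¹ * a3⁻¹ := S.Tt_comm i3 i2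
    simp only [mul_inv_rev]
    rw [← mul_assoc a3⁻¹, ← mul_assoc (a3⁻¹ * a2⁻¹), e1, e2, e3]
    group

section Main

variable {q : ℕ} (hq3 : 3 ≤ q) (hK : Fintype.card K = q ^ 2) (hf : ∀ t, f t = t ^ q) (hf2 : ∀ t, f^[2] t = t)

/-- The parametrisation of a kernel. -/
theorem exists_Z [Finite Γ] (hσ : IsStemExtension σ) (hq3 : 3 ≤ q) (hK : Fintype.card K = q ^ 2) (hf : ∀ t, f t = t ^ q) (hf2 : ∀ t, f^[2] t = t) :
    ∃ Z : Kˣ →* Γ, (∀ u : Kˣ, u ^ 3 = 1 → unitsF f u = u⁻¹ → σ (Z u) = 1) ∧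
      ∀ z ∈ σ.ker, ∃ u : Kˣ, u ^ 3 = 1 ∧ unitsF f u = u⁻¹ ∧ Z u = z := by
  classical
  have hE : CE σ := ⟨hσ.1, fun z hz x => by
    have h1 : z ∈ σ.ker := hz
    have h2 := hσ.2.1 h1
    exact (Subgroup.mem_center_iff.1 h2 x).symm⟩
  have t := rtab f
  have hg : ∀ r, r < 48 → Good σ (GT (sc f).twG) (GX (sc f).twG rel r) := fun r hr => good_all hE hq3 hK hf hf2 hr
  obtain ⟨nh, S⟩ := exists_S hq3 hK hf hf2 hE
  have hle := ker_le hq3 hK hf hf2 S hσ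
  obtain ⟨φ0, P0⟩ := SCOK.exists_classHom (sc f) (i := 1) (by decide)
  obtain ⟨φ1, P1⟩ := SCOK.exists_classHom (sc f) (i := 3) (by decide)
  obtain ⟨φ2, P2⟩ := SCOK.exists_classHom (sc f) (i := 2) (by decide)
  obtain ⟨φ3, P3⟩ := SCOK.exists_classHom (sc f) (i := 0) (by decide)
  have hf2' : ∀ t : K, f^[dd 2] t = t := hf2
  have hf3' : ∀ t : K, f^[dd 0] t = t := hf2
  obtain ⟨ψ2, a1, a2, a3⟩ : ∃ ψ : SL2 ↥(Sb f (dd 2)) →* Γ, (∀ u, ψ (uu u) ∈ RTab.VV (sc f) rel σ 2) ∧ (∀ u, ψ (ll u) ∈ RTab.VV (sc f) rel σ (24 + 2)) ∧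
      ∀ g, σ (ψ g) = RTab.phi0 P2 g := t.exists_ψ hE (a := 2) (by decide) (hg 2 (by decide)) (hg 26 (by decide)) P2
  obtain ⟨ψ3, b1, b2, b3⟩ : ∃ ψ : SL2 ↥(Sb f (dd 0)) →* Γ, (∀ u, ψ (uu u) ∈ RTab.VV (sc f) rel σ 3) ∧ (∀ u, ψ (ll u) ∈ RTab.VV (sc f) rel σ (24 + 3)) ∧
      ∀ g, σ (ψ g) = RTab.phi0 P3 g := t.exists_ψ hE (a := 3) (by decide) (hg 3 (by decide)) (hg 27 (by decide)) P3
  have v2 : ∀ g, ((σ (ψ2 g) : ↥(sc f).twG.G1) : GL chevE6.Idx K) = φ2 g := fun g => by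
    rw [a3]
    rfl
  have v3 : ∀ g, ((σ (ψ3 g) : ↥(sc f).twG.G1) : GL chevE6.Idx K) = φ3 g := fun g => by
    rw [b3]
    rfl
  have d2 : ∀ u : Kˣ, φ2 (DD hf2' u) = tor RootE6T.R chevE6 (cE f 1 1 u 1) := by
    intro u
    rw [DD_apply, D_class2 P2 _ (mk_ne hf2' u), uS_mk hf2']
  have d3 : ∀ u : Kˣ, φ3 (DD hf3' u) = tor RootE6T.R chevE6 (cE f 1 1 1 u) := by
    intro u
    rw [DD_apply, D_class3 P3 _ (mk_ne hf3' u), uS_mk hf3']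
  have m2 : ∀ u : Kˣ, ψ2 (DD hf2' u) ∈ TL σ (GT (sc f).twG) (RTab.VV (sc f) rel σ) 24 2 := by
    intro u
    refine ⟨t.psi_mem_LL a1 a2 _, ?_⟩
    show σ _ ∈ GT (sc f).twG
    rw [mem_GT, v2, d2]
    exact hF.tor_mem_diagonal _
  have m3 : ∀ u : Kˣ, ψ3 (DD hf3' u) ∈ TL σ (GT (sc f).twG) (RTab.VV (sc f) rel σ) 24 3 := by
    intro u
    refine ⟨t.psi_mem_LL b1 b2 _, ?_⟩
    show σ _ ∈ GT (sc f).twG
    rw [mem_GT, v3, d3]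
    exact hF.tor_mem_diagonal _
  have hcm : ∀ u v : Kˣ, ψ3 (DD hf3' u) * ψ2 (DD hf2' v) = ψ2 (DD hf2' v) * ψ3 (DD hf3' u) := fun u v =>
    S.TL_comm (by decide) (by decide) (m3 u) (m2 v)
  let Z : Kˣ →* Γ :=
    { toFun := fun u => ψ2 (DD hf2' (u ^ 2)) * ψ3 (DD hf3' u)
      map_one' := by simp
      map_mul' := by
        intro u v
        simp only [map_mul, mul_pow]
        calc ψ2 (DD hf2' (u ^ 2)) * ψ2 (DD hf2' (v ^ 2)) * (ψ3 (DD hf3' u) * ψ3 (DD hf3' v))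
            = ψ2 (DD hf2' (u ^ 2)) * (ψ2 (DD hf2' (v ^ 2)) * ψ3 (DD hf3' u)) * ψ3 (DD hf3' v) := by group
          _ = ψ2 (DD hf2' (u ^ 2)) * (ψ3 (DD hf3' u) * ψ2 (DD hf2' (v ^ 2))) * ψ3 (DD hf3' v) := by rw [hcm]
          _ = _ := by group }
  have hZ : ∀ u, Z u = ψ2 (DD hf2' (u ^ 2)) * ψ3 (DD hf3' u) := fun _ => rfl
  refine ⟨Z, ?_, ?_⟩
  · intro u h3 hu
    apply Subtype.ext
    rw [hZ, map_mul]
    show ((σ (ψ2 _) : ↥(sc f).twG.G1) : GL chevE6.Idx K) * ((σ (ψ3 _) : ↥(sc f).twG.G1) : GL chevE6.Idx K) = 1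
    rw [v2, v3, d2, d3, tor_mul, cE_mul]
    simp only [mul_one, one_mul]
    exact tor_cE_inv h3 hu
  · intro z hz
    obtain ⟨t0, ht0, t1, ht1, t2, ht2, t3, ht3, rfl⟩ := Tt_decomp S (hle hz)
    obtain ⟨-, -, -, -, -, r0⟩ := t.rank1 hE (a := 0) (by decide) (hg 0 (by decide)) (hg 24 (by decide)) P0 (hker0 hf2 P0)
    obtain ⟨-, -, -, -, -, r1⟩ := t.rank1 hE (a := 1) (by decide) (hg 1 (by decide)) (hg 25 (by decide)) P1 (hker1 hf2 P1)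
    obtain ⟨c0, hc0, e0⟩ : ∃ c : ↥(Sb f (dd 1)), c ≠ 0 ∧ ((σ t0 : ↥(sc f).twG.G1) : GL chevE6.Idx K) = φ0 (wd c * (wd (-1) : SL2 ↥(Sb f (dd 1)))) := r0 t0 ht0
    obtain ⟨c1, hc1, e1⟩ : ∃ c : ↥(Sb f (dd 3)), c ≠ 0 ∧ ((σ t1 : ↥(sc f).twG.G1) : GL chevE6.Idx K) = φ1 (wd c * (wd (-1) : SL2 ↥(Sb f (dd 3)))) := r1 t1 ht1
    obtain ⟨g2, rfl⟩ : ∃ g : SL2 ↥(Sb f (dd 2)), ψ2 g = t2 := t.LL_range hE (a := 2) (by decide) (hg 2 (by decide)) (hg 26 (by decide)) P2 a1 a2 a3 ht2.1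
    obtain ⟨g3, rfl⟩ : ∃ g : SL2 ↥(Sb f (dd 0)), ψ3 g = t3 := t.LL_range hE (a := 3) (by decide) (hg 3 (by decide)) (hg 27 (by decide)) P3 b1 b2 b3 ht3.1
    have q2 : φ2 g2 ∈ chevE6.diagonalSubgroup K := by
      rw [← v2]
      exact mem_GT.1 ht2.2
    have q3 : φ3 g3 ∈ chevE6.diagonalSubgroup K := by
      rw [← v3]
      exact mem_GT.1 ht3.2
    obtain ⟨c2, hc2, rfl⟩ := P2.diag_of q2
    obtain ⟨c3, hc3, rfl⟩ := P3.diag_of q3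
    have e0' : ((σ t0 : ↥(sc f).twG.G1) : GL chevE6.Idx K) = tor RootE6T.R chevE6 (cE f (uS c0 hc0) 1 1 1) := by
      rw [e0]
      exact D_class0 P0 c0 hc0
    have e1' : ((σ t1 : ↥(sc f).twG.G1) : GL chevE6.Idx K) = tor RootE6T.R chevE6 (cE f 1 (uS c1 hc1) 1 1) := by
      rw [e1]
      exact D_class1 P1 c1 hc1
    have e2' := D_class2 P2 c2 hc2
    have e3' := D_class3 P3 c3 hc3
    have hz1 : σ (t0 * t1 * ψ2 (wd c2 * wd (-1)) * ψ3 (wd c3 * wd (-1))) = 1 := hz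
    have hz2 : tor RootE6T.R chevE6 (cE f (uS c0 hc0) (uS c1 hc1) (uS c2 hc2) (uS c3 hc3)) = (1 : GL chevE6.Idx K) := by
      have h5 := congrArg Subtype.val hz1
      rw [map_mul σ, map_mul σ, map_mul σ, Subgroup.coe_mul, Subgroup.coe_mul, Subgroup.coe_mul, e0', e1', v2, v3, e2', e3', tor_mul, tor_mul, tor_mul,
        cE_mul, cE_mul, cE_mul] at h5
      simpa using h5
    obtain ⟨h0, h1, h2, h3, h4⟩ : uS c0 hc0 = 1 ∧ uS c1 hc1 = 1 ∧ uS c2 hc2 = uS c3 hc3 ^ 2 ∧ uS c3 hc3 ^ 3 = 1 ∧ unitsF f (uS c3 hc3) = (uS c3 hc3)⁻¹ :=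
      cE_one hf2 (uS_fix (f := f) (c := c0) hc0) (uS_fix (f := f) (c := c1) hc1) hz2
    have s0 : σ t0 = 1 := by
      apply Subtype.ext
      rw [e0', h0, cE_one_eq, tor_one]
      rfl
    have s1 : σ t1 = 1 := by
      apply Subtype.ext
      rw [e1', h1, cE_one_eq, tor_one]
      rfl
    have u0 := S.inj_L 0 (by decide) t0 ht0.1 s0
    have u1 := S.inj_L 1 (by decide) t1 ht1.1 s1
    refine ⟨uS c3 hc3, h3, h4, ?_⟩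
    rw [hZ, ← h2, u0, u1, one_mul, one_mul]
    rfl

/-- The upper bound. -/
theorem upper [Finite Γ] (hσ : IsStemExtension σ) (hq : IsPrimePow q) (hq3 : 3 ≤ q) (hK : Fintype.card K = q ^ 2) (hf : ∀ t, f t = t ^ q) (hf2 : ∀ t, f^[2] t = t) :
    ∃ π : Multiplicative (ZMod (Nat.gcd 3 (q + 1))) →* σ.ker, Function.Surjective π := by
  classical
  obtain ⟨Z, hZ1, hZ2⟩ := exists_Z hσ hq3 hK hf hf2
  have hfu : ∀ u : Kˣ, unitsF f u = u ^ q := by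
    intro u
    apply Units.ext
    rw [unitsF_val, hf, Units.val_pow_eq_pow_val]
  have hgcd : ∀ u : Kˣ, u ^ Nat.gcd 3 (q + 1) = 1 ↔ u ^ 3 = 1 ∧ unitsF f u = u⁻¹ := by
    intro u
    rw [hfu, eq_inv_iff_mul_eq_one, ← pow_succ]
    exact pow_gcd_eq_one
  have h1 : Nat.card {u : Kˣ // u ^ Nat.gcd 3 (q + 1) = 1} = Nat.gcd 3 (q + 1) := by
    rw [card_units_pow_eq_one, hK]
    apply Nat.gcd_eq_right
    have h2 : q + 1 ∣ q ^ 2 - 1 := by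
      refine ⟨q - 1, ?_⟩
      zify [Nat.one_le_pow 2 q (by omega), show 1 ≤ q by omega]
      ring
    exact (Nat.gcd_dvd_right _ _).trans h2
  set n := Nat.gcd 3 (q + 1) with hn
  let μ : Subgroup Kˣ := (powMonoidHom n : Kˣ →* Kˣ).ker
  have hmem : ∀ u : Kˣ, u ∈ μ ↔ u ^ n = 1 := fun u => Iff.rfl
  have hcard : Nat.card μ = n := by
    rw [← h1]
    exact Nat.card_congr (Equiv.subtypeEquivRight hmem)
  have hn' : n = 1 ∨ n.Prime := by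
    rcases (Nat.dvd_prime Nat.prime_three).1 (Nat.gcd_dvd_left 3 (q + 1)) with h | h
    · exact Or.inl h
    · right
      rw [show n = 3 from h]
      exact Nat.prime_three
  obtain ⟨e⟩ := Cfsg.Agent.Lib.ChevStemN.iso_of_card hcard hn'
  let ZR : μ →* σ.ker := (Z.comp μ.subtype).codRestrict σ.ker (by
    rintro ⟨u, hu⟩
    obtain ⟨h3, h4⟩ := (hgcd u).1 ((hmem u).1 hu)
    exact hZ1 u h3 h4)
  refine ⟨ZR.comp e.toMonoidHom, ?_⟩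
  rintro ⟨z, hz⟩
  obtain ⟨u, h3, h4, rfl⟩ := hZ2 z hz
  refine ⟨e.symm ⟨u, (hmem u).2 ((hgcd u).2 ⟨h3, h4⟩)⟩, ?_⟩
  apply Subtype.ext
  show Z ((e (e.symm _) : μ) : Kˣ) = Z u
  rw [MulEquiv.apply_symm_apply]

end Main

end Cfsg.Agent.Lib.TwE6St
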