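import Cfsg.Agent.Lib.TwE6St.Mono

/-!
# The lifted root groups of `²E₆`
-/

set_option autoImplicit false
set_option linter.unusedSectionVars false
set_option linter.unusedVariables false

namespace Cfsg.Agent.Lib.TwE6St

open Cfsg Cfsg.Lie Cfsg.Agent.Lib.Chev Cfsg.Agent.Lib.Chev.TwE6 Cfsg.Agent.Lib.TwStem Equiv
open scoped commutatorElement

variable {K : Type*} [Field K] [Fintype K] {f : K ≃+* K}

/-- start of a path -/
def stL : List ℕ := [6,6,4,4,4,4,6,4,6,4,4,4,6,4,6,6,4,6,4,6,4,6,6,6,6,6,4,4,4,4,6,4,6,4,4,4,6,4,6,6,4,6,4,6,4,6,6,6]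

/-- a path -/
def pathL : List (List ℕ) := [[1],[0],[3],[2],[],[3,1],[],[1],[2,0],[3,0,1],[2,1],[0,1],[2],[2,0,1],[1,2],[3,2,0],[1,2,0,1],[3,2],[2,1,2,0,1],[3,1,2],[3,2,1,2,0,1],[2,3,1,2],[1,2,3,1,2],[0,1,2,3,1,2],[0,1],[1,0],[2,3],[3,2],[2,3,2],[1,2,3],[0,1,0],[1,2,3,2],[2,1,0],[0,1,2,3],[2,1,2,3,2],[0,1,2,3,2],[2,0,1,0],[2,0,1,2,3,2],[1,2,0,1,0],[3,2,1,0],[1,2,0,1,2,3,2],[3,2,0,1,0],[2,1,2,0,1,2,3,2],[3,1,2,0,1,0],[3,2,1,2,0,1,2,3,2],[2,3,1,2,0,1,0],[1,2,3,1,2,0,1,0],[0,1,2,3,1,2,0,1,0]]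


theorem path_ok : ∀ r < 48, (∀ i ∈ pathL.getD r [], i < 4) ∧ sL sT (pathL.getD r []) (stL.getD r 0) = r ∧
    (stL.getD r 0 = 6 ∨ stL.getD r 0 = 4) := by
  decide +kernel

theorem tab_cls : cls 6 = [47] ∧ cls 0 = [46] ∧ cls 1 = [39] ∧ cls 4 = [38, 57] ∧ cls 3 = [56, 36] ∧ cls 2 = [42, 37] := by
  decide +kernel

theorem tab_g : Trie.find (Int.ofNat 1) TwTabE6.g 47 = 1 ∧ Trie.find (Int.ofNat 1) TwTabE6.g 57 = -1 := by decide +kernel

theorem tab_c : chevE6.commTerms 39 46 = [(47, 1, 1, 1)] ∧ chevE6.commTerms 42 56 = [(57, 1, 1, 1)] ∧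
    chevE6.commTerms 37 36 = [(38, -1, 1, 1)] ∧ chevE6.commTerms 56 37 = [] ∧ chevE6.commTerms 36 42 = [] ∧
    chevE6.commTerms 56 36 = [] ∧ chevE6.commTerms 42 37 = [] ∧ chevE6.commTerms 38 56 = [] ∧ chevE6.commTerms 38 42 = [] := by
  decide +kernel

theorem tab_s : chevE6.simple 1 = 46 ∧ chevE6.simple 3 = 39 ∧ chevE6.simple 0 = 56 ∧ chevE6.simple 2 = 42 ∧
    TwTabE6.S.r 56 = 36 ∧ TwTabE6.S.r 42 = 37 ∧ TwE6.A 1 = 1 ∧ TwE6.A 3 = 3 ∧ TwE6.A 0 = 0 ∧ TwE6.A 2 = 2 ∧ dd 1 = 1 ∧ dd 3 = 1 ∧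
    dd 0 = 2 ∧ dd 2 = 2 := by
  decide +kernel

/-- The commutator of two root elements with a single term. -/
theorem comm_xG {r s k : ℕ} {c : ℤ} (hr : r < chevE6.nroots) (hs : s < chevE6.nroots) (h1 : s ≠ r) (h2 : s ≠ chevE6.neg r)
    (h3 : chevE6.commTerms r s = [(k, c, 1, 1)]) (A B : K) :
    ⁅hF.c.xG s A, hF.c.xG r B⁆ = hF.c.xG k (-(c : K) * A * B) := by
  have h4 := hF.xG_comm hr hs h1 h2 (-B) (-A)
  have h5 : hF.c.wordG (chevE6.commWord K r s (-B) (-A)) = hF.c.xG k (-(c : K) * A * B) := by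
    simp only [ChevalleyDatum.commWord, h3, List.map_cons, List.map_nil, Checks.wordG_cons, Checks.wordG_nil, mul_one, pow_one, neg_neg]
    congr 1
    ring
  rw [h5] at h4
  rw [commutatorElement_def, ← h5]
  rw [h5]
  have i1 : (hF.c.xG s A)⁻¹ = hF.c.xG s (-A) := hF.c.xG_inv s A
  have i2 : (hF.c.xG r B)⁻¹ = hF.c.xG r (-B) := hF.c.xG_inv r B
  rw [i1, i2]
  have i3 : hF.c.xG s A = (hF.c.xG s (-A))⁻¹ := by rw [← i1, inv_inv]
  have i4 : hF.c.xG r B = (hF.c.xG r (-B))⁻¹ := by rw [← i2, inv_inv]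
  rw [i3, i4]
  generalize hF.c.xG s (-A) = a at *
  generalize hF.c.xG r (-B) = b at *
  rw [mul_assoc (a⁻¹ * b⁻¹), h4]
  group

/-- The commutator of products. -/
theorem comm_prod {G : Type*} [Group G] {x1 x2 y1 y2 : G} (c1 : Commute x1 y2) (c2 : Commute x2 y1)
    (c3 : Commute x1 x2) (c4 : Commute y1 y2) (cw1 : Commute ⁅x2, y2⁆ x1) (cw2 : Commute ⁅x2, y2⁆ y1) :
    ⁅x1 * x2, y1 * y2⁆ = ⁅x1, y1⁆ * ⁅x2, y2⁆ := by
  generalize hw : ⁅x2, y2⁆ = w at cw1 cw2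
  have hw' : x2 * y2 * x2⁻¹ * y2⁻¹ = w := hw
  rw [commutatorElement_def, commutatorElement_def]
  have e1 : x1 * x2 * (y1 * y2) * (x1 * x2)⁻¹ * (y1 * y2)⁻¹ = x1 * (x2 * y1) * y2 * x2⁻¹ * (x1⁻¹ * y2⁻¹) * y1⁻¹ := by group
  rw [e1, c2.eq, c1.inv_left.inv_right.eq]
  have e2 : x1 * (y1 * x2) * y2 * x2⁻¹ * (y2⁻¹ * x1⁻¹) * y1⁻¹ = x1 * y1 * (x2 * y2 * x2⁻¹ * y2⁻¹) * x1⁻¹ * y1⁻¹ := by group
  rw [e2, hw']
  have e3 : x1 * y1 * w * x1⁻¹ * y1⁻¹ = x1 * y1 * (w * x1⁻¹) * y1⁻¹ := by group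
  rw [e3, cw1.inv_right.eq]
  have e4 : x1 * y1 * (x1⁻¹ * w) * y1⁻¹ = x1 * y1 * x1⁻¹ * (w * y1⁻¹) := by group
  rw [e4, cw2.inv_right.eq]
  group

/-- Pointwise commuting generators. -/
theorem comm_closure {A : Type*} [Group A] {S T : Set A} (h : ∀ a ∈ S, ∀ b ∈ T, Commute a b) :
    ∀ a ∈ Subgroup.closure S, ∀ b ∈ Subgroup.closure T, Commute a b := by
  intro a ha b hb
  induction ha using Subgroup.closure_induction with
  | mem a ha =>
    induction hb using Subgroup.closure_induction with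
    | mem b hb => exact h a ha b hb
    | one => exact Commute.one_right _
    | mul x y _ _ hx hy => exact hx.mul_right hy
    | inv x _ hx => exact hx.inv_right
  | one => exact Commute.one_left _
  | mul x y _ _ hx hy => exact hx.mul_left hy
  | inv x _ hx => exact hx.inv_left

/-- Relative root groups commuting at the level of roots. -/
theorem GX_commute {k s : ℕ} (hk : k < 24) (hs : s < 24)
    (h : ∀ r ∈ cls k, ∀ r' ∈ cls s, r' ≠ r ∧ r' ≠ chevE6.neg r ∧ chevE6.commTerms r r' = []) :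
    ∀ x ∈ GX (AA f) rel k, ∀ y ∈ GX (AA f) rel s, x * y = y * x := by
  intro x hx y hy
  have h1 := (mem_GX.1 hx).2
  have h2 := (mem_GX.1 hy).2
  apply Subtype.ext
  refine comm_closure ?_ _ h1 _ h2
  rintro _ ⟨r, t, ⟨h3, h4⟩, e⟩ _ ⟨r', t', ⟨h5, h6⟩, e'⟩
  rw [hF.c.eq_xG e, hF.c.eq_xG e']
  have h7 := (cls_iff k hk r).1 ⟨h3, h4⟩
  have h8 := (cls_iff s hs r').1 ⟨h5, h6⟩
  obtain ⟨h9, h10, h11⟩ := h r h7 r' h8
  exact Full.xG_commute_of_nil (hF := hF) h3 h5 h9 h10 h11 t t'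

theorem gen_at {i r₀ d : ℕ} (hi : i < chevE6.rank) {t : K} (ht : f^[dd i] t = t) (e1 : chevE6.simple (TwE6.A i) = r₀) (e2 : dd i = d) :
    ∃ h : hF.c.wordG (cw TwTabE6.S.r f r₀ d t) ∈ (AA f).G1, (⟨_, h⟩ : ↥(AA f).G1) ∈ GX (AA f) rel (rel r₀) := by
  subst e1 e2
  exact gen_pos hi ht

theorem word1 (r : ℕ) (t : K) : hF.c.wordG (cw TwTabE6.S.r f r 1 t) = hF.c.xG r t := by
  show hF.c.wordG [(r, t)] = _
  rw [Checks.wordG_cons, Checks.wordG_nil, mul_one]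

theorem word2 (r : ℕ) (t : K) : hF.c.wordG (cw TwTabE6.S.r f r 2 t) = hF.c.xG r t * hF.c.xG (TwTabE6.S.r r) (f t) := by
  show hF.c.wordG [(r, t), (TwTabE6.S.r r, f t)] = _
  rw [Checks.wordG_cons, Checks.wordG_cons, Checks.wordG_nil, mul_one]

variable {Γ : Type*} [Group Γ] {σ : Γ →* ↥(AA f).G1}

/-- Lifts of commuting relative root groups commute. -/
theorem lifts_comm (hE : CE σ) {q : ℕ} (hq3 : 3 ≤ q) (hK : Fintype.card K = q ^ 2) (hf : ∀ t, f t = t ^ q) (hf2 : ∀ t, f^[2] t = t)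
    {k s : ℕ} (hks : k < s) (hs : s < 24) (h : ∀ r ∈ cls k, ∀ r' ∈ cls s, r' ≠ r ∧ r' ≠ chevE6.neg r ∧ chevE6.commTerms r r' = []) :
    ∀ u v : Γ, σ u ∈ GX (AA f) rel k → σ v ∈ GX (AA f) rel s → u * v = v * u := by
  have hc := GX_commute (f := f) (by omega : k < 24) hs h
  obtain ⟨t, ht, (⟨h1, h2⟩ | ⟨h1, h2⟩)⟩ := wit_T (f := f) hq3 hK hf hf2 hks hs
  · exact comm_of_wit hE h1 (fun y hy => GT_act ht hy) h2 hc
  · intro u v hu hv
    exact (comm_of_wit hE h1 (fun y hy => GT_act ht hy) h2 (fun y hy x hx => (hc x hx y hy).symm) v u hv hu).symm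

/-- The lifts of the long root group at `47` commute. -/
theorem lc6 (hE : CE σ) {q : ℕ} (hq3 : 3 ≤ q) (hK : Fintype.card K = q ^ 2) (hf : ∀ t, f t = t ^ q) (hf2 : ∀ t, f^[2] t = t) :
    ∀ u v : Γ, σ u ∈ GX (AA f) rel 6 → σ v ∈ GX (AA f) rel 6 → u * v = v * u := by
  obtain ⟨c6, c0, c1, c4, c3, c2⟩ := tab_cls
  obtain ⟨g47, g57⟩ := tab_g
  obtain ⟨t1, t2, t3, t4, t5, t6, t7, t8, t9⟩ := tab_c
  obtain ⟨s1, s3, s0, s2, r56, r42, a1, a3, a0, a2, d1, d3, d0, d2⟩ := tab_s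
  have hc01 : ∀ j ∈ [0, 1], ∀ r ∈ cls j, ∀ r' ∈ cls 6, r' ≠ r ∧ r' ≠ chevE6.neg r ∧ chevE6.commTerms r r' = [] := by
    decide +kernel
  refine lc_of_comm hE (Xa := GX (AA f) rel 0) (Xb := GX (AA f) rel 1) ?_ ?_ ?_
  · intro x hx
    obtain ⟨h1, h2⟩ := mem_GX.1 hx
    obtain ⟨t, ht⟩ := hF.exists_wL_of_mem (cls_comm (by norm_num : 6 < 24)) (cls_nd 6 (by norm_num)) (cls_iff 6 (by norm_num)) h2
    rw [c6] at ht
    have ht' : x.1 = hF.c.xG 47 (t 47) := by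
      rw [ht, Full.wL_cons, Full.wL_nil, mul_one]
    have hfix := h1.2
    rw [ht'] at hfix
    have e1 := TwTabE6.ok.signTw_s hF TwTabE6.sign_ok TwTabE6.sq_ok TwTabE6.unit_ok TwTabE6.neg_ok f (r := 47) (by decide +kernel) (t 47)
    have hr47 : TwTabE6.S.r 47 = 47 := by decide +kernel
    rw [hr47, g47] at e1
    rw [e1] at hfix
    have e2 := hF.xG_param_inj (by decide +kernel) hfix
    simp only [Int.cast_one, one_mul] at e2
    -- the elements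
    have hf1 : f^[dd 3] (1 : K) = 1 := by
      rw [d3]
      exact map_one f
    have hf0 : f^[dd 1] (-t 47) = -t 47 := by
      rw [d1]
      show f (-t 47) = -t 47
      rw [map_neg, e2]
    have e3 : rel 46 = 0 ∧ rel 39 = 1 := by decide +kernel
    obtain ⟨m1, m2⟩ := gen_at (f := f) (i := 1) (r₀ := 46) (d := 1) (by decide +kernel) hf0 (by rw [a1, s1]) d1
    obtain ⟨m3, m4⟩ := gen_at (f := f) (i := 3) (r₀ := 39) (d := 1) (by decide +kernel) hf1 (by rw [a3, s3]) d3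
    rw [e3.1] at m2
    rw [e3.2] at m4
    refine ⟨_, m2, _, m4, ?_⟩
    apply Subtype.ext
    rw [ht']
    show hF.c.xG 47 (t 47) = ⁅hF.c.wordG (cw TwTabE6.S.r f 46 1 (-t 47)), hF.c.wordG (cw TwTabE6.S.r f 39 1 1)⁆
    rw [word1, word1, comm_xG (by decide +kernel) (by decide +kernel) (by decide +kernel) (by decide +kernel) t1]
    congr 1
    simp
  · exact fun u v hu hv => (lifts_comm hE hq3 hK hf hf2 (k := 0) (s := 6) (by norm_num) (by norm_num) (hc01 0 (by simp)) v u hv hu).symm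
  · exact fun u v hu hv => (lifts_comm hE hq3 hK hf hf2 (k := 1) (s := 6) (by norm_num) (by norm_num) (hc01 1 (by simp)) v u hv hu).symm

/-- The lifts of the short root group at `57` commute. -/
theorem lc4 (hE : CE σ) {q : ℕ} (hq3 : 3 ≤ q) (hK : Fintype.card K = q ^ 2) (hf : ∀ t, f t = t ^ q) (hf2 : ∀ t, f^[2] t = t) :
    ∀ u v : Γ, σ u ∈ GX (AA f) rel 4 → σ v ∈ GX (AA f) rel 4 → u * v = v * u := by
  obtain ⟨c6, c0, c1, c4, c3, c2⟩ := tab_cls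
  obtain ⟨g47, g57⟩ := tab_g
  obtain ⟨t1, t2, t3, t4, t5, t6, t7, t8, t9⟩ := tab_c
  obtain ⟨s1, s3, s0, s2, r56, r42, a1, a3, a0, a2, d1, d3, d0, d2⟩ := tab_s
  have hc23 : ∀ j ∈ [2, 3], ∀ r ∈ cls j, ∀ r' ∈ cls 4, r' ≠ r ∧ r' ≠ chevE6.neg r ∧ chevE6.commTerms r r' = [] := by
    decide +kernel
  refine lc_of_comm hE (Xa := GX (AA f) rel 3) (Xb := GX (AA f) rel 2) ?_ ?_ ?_
  · intro x hx
    obtain ⟨h1, h2⟩ := mem_GX.1 hx
    obtain ⟨t, ht⟩ := hF.exists_wL_of_mem (cls_comm (by norm_num : 4 < 24)) (cls_nd 4 (by norm_num)) (cls_iff 4 (by norm_num)) h2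
    have hfix := h1.2
    rw [ht] at hfix
    have hperm : ((cls 4).map TwTabE6.S.r).Perm (cls 4) := by
      rw [c4]
      have : [38, 57].map TwTabE6.S.r = [57, 38] := by decide +kernel
      rw [this]
      exact List.Perm.swap _ _ _
    have hfx := (τ f).fixed_wL (cls_comm (by norm_num : 4 < 24)) (cls_nd 4 (by norm_num)) (fun r hr => cls_pos (by norm_num) hr)
      (ρ' := TwTabE6.S.r) (c' := fun r t => ((Trie.find (Int.ofNat 1) TwTabE6.g r : ℤ) : K) * f t) hperm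
      (fun r hr a => TwTabE6.ok.signTw_s hF TwTabE6.sign_ok TwTabE6.sq_ok TwTabE6.unit_ok TwTabE6.neg_ok f (cls_lt (by norm_num) hr) a) hfix
    have h57 := hfx 57 (by rw [c4]; simp)
    have hr57 : TwTabE6.S.r 57 = 38 := by decide +kernel
    rw [hr57] at h57
    simp only [g57] at h57
    rw [c4] at ht
    have hcm : Commute (hF.c.xG 38 (t 38)) (hF.c.xG 57 (t 57)) := by
      refine cls_comm (K := K) (by norm_num : 4 < 24) 38 ?_ 57 ?_ _ _
      · rw [c4]; simp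
      · rw [c4]; simp
    have ht' : x.1 = hF.c.xG 57 (t 57) * hF.c.xG 38 (-f (t 57)) := by
      rw [ht, Full.wL_cons, Full.wL_cons, Full.wL_nil, mul_one, hcm.eq, h57]
      congr 2
      simp
    -- the elements
    have hf0 : f^[dd 0] (-t 57) = -t 57 := by
      rw [d0]
      exact hf2 _
    have hf2' : f^[dd 2] (1 : K) = 1 := by
      rw [d2]
      exact hf2 _
    have e3 : rel 56 = 3 ∧ rel 42 = 2 := by decide +kernel
    obtain ⟨m1, m2⟩ := gen_at (f := f) (i := 0) (r₀ := 56) (d := 2) (by decide +kernel) hf0 (by rw [a0, s0]) d0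
    obtain ⟨m3, m4⟩ := gen_at (f := f) (i := 2) (r₀ := 42) (d := 2) (by decide +kernel) hf2' (by rw [a2, s2]) d2
    rw [e3.1] at m2
    rw [e3.2] at m4
    refine ⟨_, m2, _, m4, ?_⟩
    apply Subtype.ext
    rw [ht']
    show hF.c.xG 57 (t 57) * hF.c.xG 38 (-f (t 57)) = ⁅hF.c.wordG (cw TwTabE6.S.r f 56 2 (-t 57)), hF.c.wordG (cw TwTabE6.S.r f 42 2 1)⁆
    rw [word2, word2, r56, r42, map_one, map_neg]
    have hcomm : ∀ {r s : ℕ}, r < chevE6.nroots → s < chevE6.nroots → s ≠ r → s ≠ chevE6.neg r → chevE6.commTerms r s = [] → ∀ a b : K,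
        Commute (hF.c.xG r a) (hF.c.xG s b) := fun h1 h2 h3 h4 h5 a b => Full.xG_commute_of_nil (hF := hF) h1 h2 h3 h4 h5 a b
    have e5 : ⁅hF.c.xG 36 (- f (t 57)), hF.c.xG 37 (1 : K)⁆ = hF.c.xG 38 (-f (t 57)) := by
      rw [comm_xG (by decide +kernel) (by decide +kernel) (by decide +kernel) (by decide +kernel) t3]
      congr 1
      simp
    have e6 : ⁅hF.c.xG 56 (-t 57), hF.c.xG 42 (1 : K)⁆ = hF.c.xG 57 (t 57) := by
      rw [comm_xG (by decide +kernel) (by decide +kernel) (by decide +kernel) (by decide +kernel) t2]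
      congr 1
      simp
    rw [comm_prod (hcomm (by decide +kernel) (by decide +kernel) (by decide +kernel) (by decide +kernel) t4 _ _)
      (hcomm (by decide +kernel) (by decide +kernel) (by decide +kernel) (by decide +kernel) t5 _ _)
      (hcomm (by decide +kernel) (by decide +kernel) (by decide +kernel) (by decide +kernel) t6 _ _)
      (hcomm (by decide +kernel) (by decide +kernel) (by decide +kernel) (by decide +kernel) t7 _ _)
      (by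
        rw [e5]
        exact hcomm (by decide +kernel) (by decide +kernel) (by decide +kernel) (by decide +kernel) t8 _ _)
      (by
        rw [e5]
        exact hcomm (by decide +kernel) (by decide +kernel) (by decide +kernel) (by decide +kernel) t9 _ _), e5, e6]
  · exact fun u v hu hv => (lifts_comm hE hq3 hK hf hf2 (k := 3) (s := 4) (by norm_num) (by norm_num) (hc23 3 (by simp)) v u hv hu).symm
  · exact fun u v hu hv => (lifts_comm hE hq3 hK hf hf2 (k := 2) (s := 4) (by norm_num) (by norm_num) (hc23 2 (by simp)) v u hv hu).symm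

end Cfsg.Agent.Lib.TwE6St
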