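import Cfsg.Agent.Lib.TwE6St.Tors
import Cfsg.Agent.Lib.CoxF4

/-!
# `²E₆`: the kernel of a stem extension lies in the lifted torus
-/

set_option autoImplicit false
set_option linter.unusedSectionVars false
set_option linter.unusedVariables false
set_option linter.unusedSimpArgs false

namespace Cfsg.Agent.Lib.TwE6St

open Cfsg Cfsg.Lie Cfsg.Agent.Lib.Chev Cfsg.Agent.Lib.Chev.TwE6 Cfsg.Agent.Lib.TwStem Equiv
open Cfsg.Agent.Lib.SL2Core Cfsg.Agent.Lib.SL2Bor Cfsg.Agent.Lib.StK Cfsg.Agent.Lib.ChevLift Cfsg.Agent.Lib.ChevLift.RD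
open scoped commutatorElement

section General

variable {Γ G : Type*} [Group Γ] [Group G]
variable {σ : Γ →* G} {l m : ℕ} {X : ℕ → Subgroup G} {T N : Subgroup G} {n : ℕ → G} {s : ℕ → ℕ → ℕ}
  {V : ℕ → Subgroup Γ} {nh : ℕ → Γ}

/-- The kernel of a stem extension lies in the lifted torus. -/
theorem ker_le_Tt (S : TSys σ l m X T N n s V nh) (hσ : IsStemExtension σ) (M : CoxeterMatrix (Fin l)) (Φ : ↥N →* M.Group)
    (hΦT : ∀ t (ht : t ∈ T), Φ ⟨t, S.T_le ht⟩ = 1)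
    (hΦn : ∀ a : Fin l, Φ ⟨n a, S.n_mem a a.2⟩ = M.simple a)
    (hbr : ∀ a b : Fin l, (nh a * nh b) ^ M a b ∈ Tt σ T V l m) : σ.ker ≤ Tt σ T V l m := by
  have htop : Subgroup.closure (TSys.gens σ T V nh l m) = ⊤ := by
    apply Cfsg.Agent.Lib.ChevStem.eq_top_of_stem hσ
    intro g
    exact S.gens_onto (σ g)
  intro z hz
  have hz1 : σ z = 1 := hz
  have hcz := S.cen.cen z hz1
  have hc : z ∈ BCell (UF V m 0) (Nt σ T V nh l m) := S.closure_gens_cell (by rw [htop]; trivial)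
  obtain ⟨u, hu, a, ha, v, hv, rfl⟩ := hc
  have e1 : σ a = (σ u)⁻¹ * (σ v)⁻¹ := by
    rw [map_mul, map_mul] at hz1
    calc σ a = (σ u)⁻¹ * (σ u * σ a * σ v) * (σ v)⁻¹ := by group
      _ = _ := by rw [hz1]; group
  have h1 : σ a ∈ Subgroup.closure {x | ∃ r < m, x ∈ X r} := by
    rw [e1]
    exact Subgroup.mul_mem _ (Subgroup.inv_mem _ (S.UF_map_U hu)) (Subgroup.inv_mem _ (S.UF_map_U hv))
  have h2 : σ a = 1 := S.U_N _ h1 (S.Nt_map ha)
  have h3 : σ (u * v) = 1 := by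
    rw [map_mul] at hz1 ⊢
    rw [map_mul, h2, mul_one] at hz1
    exact hz1
  have h4 : u * v = 1 := S.hinjU _ (Subgroup.mul_mem _ hu hv) h3
  have h5 : v = u⁻¹ := eq_inv_of_mul_eq_one_right h4
  subst h5
  have e2 : u * a * u⁻¹ * u = u * (u * a * u⁻¹) := hcz u
  have e3 : a = u * a * u⁻¹ := by
    have e4 : u * a = u * (u * a * u⁻¹) := by
      calc u * a = u * a * u⁻¹ * u := by group
        _ = _ := e2
    exact mul_left_cancel e4
  rw [← e3]
  let φ : ↥(Nt σ T V nh l m) →* ↥N :=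
    { toFun := fun x => ⟨σ x.1, S.Nt_map x.2⟩
      map_one' := by
        apply Subtype.ext
        simp
      map_mul' := by
        intro x y
        apply Subtype.ext
        simp }
  have hgen2 : Nt σ T V nh l m ≤ Subgroup.closure ((Tt σ T V l m : Set Γ) ∪ Set.range fun a : Fin l => nh a) := by
    unfold Nt
    rw [Subgroup.closure_le]
    rintro x (⟨i, hi, hx⟩ | ⟨i, hi, rfl⟩)
    · exact Subgroup.subset_closure (Or.inl (S.TL_le_Tt hi hx))
    · exact Subgroup.subset_closure (Or.inr ⟨⟨i, hi⟩, rfl⟩)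
  exact mem_of_cox M (Nt σ T V nh l m) (Tt σ T V l m) (fun a : Fin l => nh a) S.Tt_le_Nt
    (fun g hg t ht => S.Nt_norm hg ht) (fun a => S.nh_mem_Nt a.2) hgen2 hbr (Φ.comp φ)
    (by
      intro t ht
      show Φ ⟨σ t, _⟩ = 1
      exact hΦT _ (S.Tt_map ht))
    (by
      intro b
      show Φ ⟨σ (nh b), _⟩ = _
      have := hΦn b
      simp only [S.nh_map b b.2]
      exact this)
    ha (by
      show Φ ⟨σ a, _⟩ = 1
      have e5 : (⟨σ a, S.Nt_map ha⟩ : ↥N) = 1 := Subtype.ext h2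
      rw [e5, map_one])

end General

variable {K : Type*} [Field K] [Fintype K] {f : K ≃+* K}

/-! ### Coxeter relations -/

theorem hrelN : ∀ a b : Fin 4, ∀ r, r < chevE6.nroots →
    (fun s => wAct TabE6.X (J (repN a)) (wAct TabE6.X (J (repN b)) s))^[CoxeterMatrix.F₄ a b] r = r := by
  have e : ∀ a : Fin 4, repN a = repF a := by decide
  intro a b r hr
  rw [e a, e b]
  exact hrelF a b r hr

theorem pow_mem_GT {a b : ℕ} (ha : a < 4) (hb : b < 4) {c : ℕ}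
    (hrel : ∀ r, r < chevE6.nroots → (fun s => wAct TabE6.X (J (repN a)) (wAct TabE6.X (J (repN b)) s))^[c] r = r) :
    (nn (sc f) repN a * nn (sc f) repN b) ^ c ∈ GT (sc f).twG := by
  have t := rtab f
  have m1 := t.nn_mono ha
  have m2 := t.nn_mono hb
  set na : ↥(chevE6.monomialSubgroup K) := ⟨_, m1⟩ with hna
  set nb : ↥(chevE6.monomialSubgroup K) := ⟨_, m2⟩ with hnb
  have e1 : ((nn (sc f) repN a * nn (sc f) repN b) ^ c : ↥(sc f).twG.G1).1 = (((na * nb) ^ c : ↥(chevE6.monomialSubgroup K)) : GL chevE6.Idx K) := by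
    simp [hna, hnb]
  rw [mem_GT, e1]
  apply hF.mem_diagonal_of_rhoN_eq_one
  ext r
  have key : ∀ k : ℕ, ((hF.rhoN K ((na * nb) ^ k) r : Fin chevE6.nroots) : ℕ) = (fun s => wAct TabE6.X (J (repN a)) (wAct TabE6.X (J (repN b)) s))^[k] r := by
    intro k
    induction k with
    | zero => simp
    | succ k ih =>
      rw [pow_succ', map_mul, map_mul, Perm.mul_apply, Perm.mul_apply, Function.iterate_succ_apply', ← ih]
      show (((hF.rhoN K na) ((hF.rhoN K nb) _) : Fin chevE6.nroots) : ℕ) = _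
      rw [t.rho_nn ha, t.rho_nn hb]
  rw [key, hrel r r.2]
  rfl

theorem brOK_table : ∀ a b : Fin 4, a ≠ b → TSys.brOK (ss TabE6.X J rel repR repN) 24 a b (CoxeterMatrix.F₄ a b) = true := by
  decide +kernel

variable {Γ : Type*} [Group Γ] {σ : Γ →* ↥(sc f).twG.G1}

theorem exists_Phi : ∃ φ : ↥(GN (sc f).twG) →* (CoxeterMatrix.F₄).Group, (∀ t (ht : t ∈ GT (sc f).twG), φ ⟨t, GT_le_GN ht⟩ = 1) ∧
      ∀ a : Fin 4, φ ⟨⟨((sc f).twG.nC (repN a)).1, (sc f).twG.nC_mem _ (repN_lt a)⟩, mem_GN.2 ((sc f).twG.nC (repN a)).2⟩ = CoxeterMatrix.F₄.simple a := by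
  haveI : Finite (CoxeterMatrix.F₄).Group := Cfsg.Agent.Lib.CoxF4.main.1
  refine exists_phi (sc f) CoxeterMatrix.F₄ (fun a : Fin 4 => repN a) (fun a => repN_lt a) hrelN ?_ TwWE6.gen_inv TwWE6.gm_ok TwWE6.w_ok ?_
  · intro i hi
    have hi' : i < 6 := hi
    interval_cases i
    · exact ⟨3, rfl⟩
    · exact ⟨0, rfl⟩
    · exact ⟨2, rfl⟩
    · exact ⟨1, rfl⟩
    · exact ⟨2, by decide +kernel⟩
    · exact ⟨3, by decide +kernel⟩
  · rw [Cfsg.Agent.Lib.CoxF4.main.2.1]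
    decide +kernel

/-! ### The classes -/

theorem hker0 (hf2 : ∀ t, f^[2] t = t) {φ : SL2 ↥(Sb f (dd 1)) →* GL chevE6.Idx K} (P : ClassHom (sc f) 1 φ)
    (c : ↥(Sb f (dd 1))) (hc : c ≠ 0) (e : φ (wd c * wd (-1)) = 1) : c = 1 := by
  rw [D_class0 P c hc] at e
  have := (cE_one hf2 (uS_fix hc) (map_one _) e).1
  apply Subtype.ext
  exact congrArg Units.val this

theorem hker1 (hf2 : ∀ t, f^[2] t = t) {φ : SL2 ↥(Sb f (dd 3)) →* GL chevE6.Idx K} (P : ClassHom (sc f) 3 φ)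
    (c : ↥(Sb f (dd 3))) (hc : c ≠ 0) (e : φ (wd c * wd (-1)) = 1) : c = 1 := by
  rw [D_class1 P c hc] at e
  have := (cE_one hf2 (map_one _) (uS_fix hc) e).2.1
  apply Subtype.ext
  exact congrArg Units.val this

theorem hker2 (hf2 : ∀ t, f^[2] t = t) {φ : SL2 ↥(Sb f (dd 2)) →* GL chevE6.Idx K} (P : ClassHom (sc f) 2 φ)
    (c : ↥(Sb f (dd 2))) (hc : c ≠ 0) (e : φ (wd c * wd (-1)) = 1) : c = 1 :=
  hker_short hf2 (fun c hc => Or.inl (D_class2 P c hc)) c hc e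

theorem hker3 (hf2 : ∀ t, f^[2] t = t) {φ : SL2 ↥(Sb f (dd 0)) →* GL chevE6.Idx K} (P : ClassHom (sc f) 0 φ)
    (c : ↥(Sb f (dd 0))) (hc : c ≠ 0) (e : φ (wd c * wd (-1)) = 1) : c = 1 :=
  hker_short hf2 (fun c hc => Or.inr (D_class3 P c hc)) c hc e

/-- The classes of all the nodes. -/
theorem hcl_all (hf2 : ∀ t, f^[2] t = t) : ∀ a < 4, ∃ φ : SL2 ↥(Sb f (dd (repN a))) →* GL chevE6.Idx K, ClassHom (sc f) (repN a) φ ∧
      ∀ c : ↥(Sb f (dd (repN a))), c ≠ 0 → φ (wd c * wd (-1)) = 1 → c = 1 := by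
  intro a ha
  obtain ⟨φ, P⟩ := Cfsg.Agent.Lib.TwStem.SCOK.exists_classHom (sc f) (repN_lt a)
  refine ⟨φ, P, ?_⟩
  interval_cases a
  · exact hker0 hf2 P
  · exact hker1 hf2 P
  · exact hker2 hf2 P
  · exact hker3 hf2 P

section Main

variable {q : ℕ} (hq3 : 3 ≤ q) (hK : Fintype.card K = q ^ 2) (hf : ∀ t, f t = t ^ q) (hf2 : ∀ t, f^[2] t = t)

include hq3 hK hf hf2

theorem exists_S [Finite Γ] (hE : CE σ) :
    ∃ nh : ℕ → Γ, TSys σ 4 24 (GX (sc f).twG rel) (GT (sc f).twG) (GN (sc f).twG) (nn (sc f) repN) (ss TabE6.X J rel repR repN)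
      (RTab.VV (sc f) rel σ) nh :=
  (rtab f).exists_tsys hE (fun r hr => good_all hE hq3 hK hf hf2 hr) (fun k s h1 h2 => wit_T hq3 hK hf hf2 h1 h2) (hcl_all hf2)

theorem ker_le [Finite Γ] {nh : ℕ → Γ}
    (S : TSys σ 4 24 (GX (sc f).twG rel) (GT (sc f).twG) (GN (sc f).twG) (nn (sc f) repN) (ss TabE6.X J rel repR repN)
      (RTab.VV (sc f) rel σ) nh) (hσ : IsStemExtension σ) : σ.ker ≤ Tt σ (GT (sc f).twG) (RTab.VV (sc f) rel σ) 4 24 := by
  have t := rtab f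
  obtain ⟨Φ, hΦ1, hΦ2⟩ := exists_Phi (f := f)
  refine ker_le_Tt S hσ CoxeterMatrix.F₄ Φ (fun t ht => hΦ1 t ht) ?_ ?_
  · intro a
    have e : (⟨nn (sc f) repN a, S.n_mem a a.2⟩ : ↥(GN (sc f).twG)) =
        ⟨⟨((sc f).twG.nC (repN a)).1, (sc f).twG.nC_mem _ (repN_lt a)⟩, mem_GN.2 ((sc f).twG.nC (repN a)).2⟩ :=
      Subtype.ext (Subtype.ext (t.nn_val a.2))
    rw [e]
    exact hΦ2 a
  · intro a b
    by_cases hab : a = b
    · subst hab
      rw [CoxeterMatrix.diagonal, pow_one]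
      exact S.TL_le_Tt a.2 (S.nh_sq a.2)
    · refine S.hbr_of a.2 b.2 (brOK_table a b hab) ?_
      exact pow_mem_GT a.2 b.2 (hrelN a b)

end Main

end Cfsg.Agent.Lib.TwE6St
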