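import Cfsg.Agent.Lib.TwE6St.Good

/-!
# The lifted root groups of `²E₆`: all relations
-/

set_option autoImplicit false
set_option linter.unusedSectionVars false
set_option linter.unusedVariables false

namespace Cfsg.Agent.Lib.TwE6St

open Cfsg Cfsg.Lie Cfsg.Agent.Lib.Chev Cfsg.Agent.Lib.Chev.TwE6 Cfsg.Agent.Lib.TwStem Equiv
open scoped commutatorElement

variable {K : Type*} [Field K] [Fintype K] {f : K ≃+* K}
variable {Γ : Type*} [Group Γ] {σ : Γ →* ↥(AA f).G1}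

theorem isG_tab : ∀ r ∈ cls 6 ++ cls 4, isG r (0, 0, 0, 0, 0, 1) := by decide +kernel

section

variable (hE : CE σ) {q : ℕ} (hq3 : 3 ≤ q) (hK : Fintype.card K = q ^ 2) (hf : ∀ t, f t = t ^ q) (hf2 : ∀ t, f^[2] t = t)

include hq3 hK hf hf2 in
/-- A fixed point free torus element on the two base root groups. -/
theorem fpf_base {k : ℕ} (hk : k = 6 ∨ k = 4) : ∃ h ∈ GT (AA f), ∀ x ∈ GX (AA f) rel k, h * x * h⁻¹ = x → x = 1 := by
  classical
  obtain ⟨u, hu⟩ := IsCyclic.exists_generator (α := Kˣ)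
  have hord : orderOf u = q ^ 2 - 1 := by
    rw [orderOf_eq_card_of_forall_mem_zpowers hu, Nat.card_eq_fintype_card, Fintype.card_units, hK]
  refine ⟨tV hf2 u (0, 0, 0, 0, 0, 1), tV_mem hf2 u _, ?_⟩
  intro x hx e
  refine fpf_of_chi (hmem f _ (cV_fixed hf2 u _)) (by omega) ?_ hx e
  intro r hr
  rw [chi_cV]
  refine isG_ne hq3 hK hf hord (isG_tab r ?_)
  rcases hk with rfl | rfl
  · exact List.mem_append_left _ hr
  · exact List.mem_append_right _ hr

include hE hq3 hK hf hf2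

theorem good_base {k : ℕ} (hk : k = 6 ∨ k = 4) : Good σ (GT (AA f)) (GX (AA f) rel k) where
  ab := GT_ab
  nrm := fun t ht x hx => GT_act ht hx
  lc := by
    rcases hk with rfl | rfl
    · exact lc6 hE hq3 hK hf hf2
    · exact lc4 hE hq3 hK hf hf2
  fpf := fpf_base hq3 hK hf hf2 hk

theorem good_step {i r : ℕ} (hr : r < 48) (h : Good σ (GT (AA f)) (GX (AA f) rel r)) :
    Good σ (GT (AA f)) (GX (AA f) rel (sT i r)) := by
  refine h.conj hE (nA f i) (fun t ht => GT_nrm _ (nA_mem i) _ ht) (fun t ht => ?_)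
    (fun x hx => nA_act i hr hx) (fun x hx => nA_act' i hr hx) (fun t ht x hx => GT_act ht hx)
  have := GT_nrm _ (Subgroup.inv_mem _ (nA_mem (f := f) i)) _ ht
  simpa using this

theorem good_path {L : List ℕ} (hL : ∀ i ∈ L, i < 4) {r : ℕ} (hr : r < 48) (h : Good σ (GT (AA f)) (GX (AA f) rel r)) :
    sL sT L r < 48 ∧ Good σ (GT (AA f)) (GX (AA f) rel (sL sT L r)) := by
  induction L with
  | nil => exact ⟨hr, h⟩
  | cons i L ih =>
    obtain ⟨h1, h2⟩ := ih (fun j hj => hL j (List.mem_cons_of_mem _ hj))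
    exact ⟨sT_tab i (hL i List.mem_cons_self) _ h1, good_step hE hq3 hK hf hf2 h1 h2⟩

theorem good_all {r : ℕ} (hr : r < 48) : Good σ (GT (AA f)) (GX (AA f) rel r) := by
  obtain ⟨h1, h2, h3⟩ := path_ok r hr
  have h4 := (good_path hE hq3 hK hf hf2 h1 (r := stL.getD r 0) (by rcases h3 with h | h <;> omega)
    (good_base hE hq3 hK hf hf2 h3)).2
  rwa [h2] at h4

end

/-- The lifted root groups. -/
noncomputable def VV (σ : Γ →* ↥(AA f).G1) (r : ℕ) : Subgroup Γ := LS σ (GT (AA f)) (GX (AA f) rel r)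

section

variable (hE : CE σ) {q : ℕ} (hq3 : 3 ≤ q) (hK : Fintype.card K = q ^ 2) (hf : ∀ t, f t = t ^ q) (hf2 : ∀ t, f^[2] t = t)

include hE hq3 hK hf hf2

theorem V_map {r : ℕ} (hr : r < 48) : ∀ u ∈ VV σ r, σ u ∈ GX (AA f) rel r := ((good_all hE hq3 hK hf hf2 hr).main hE).1
theorem V_onto {r : ℕ} (hr : r < 48) : ∀ x ∈ GX (AA f) rel r, ∃ u ∈ VV σ r, σ u = x := ((good_all hE hq3 hK hf hf2 hr).main hE).2.1
theorem V_inj {r : ℕ} (hr : r < 48) : ∀ u ∈ VV σ r, σ u = 1 → u = 1 := ((good_all hE hq3 hK hf hf2 hr).main hE).2.2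

theorem V_ab {r : ℕ} (hr : r < 48) : ∀ a ∈ VV σ r, ∀ b ∈ VV σ r, a * b = b * a := by
  intro a ha b hb
  exact (good_all hE hq3 hK hf hf2 hr).lc a b (V_map hE hq3 hK hf hf2 hr a ha) (V_map hE hq3 hK hf hf2 hr b hb)

omit hE hq3 hK hf hf2 in
theorem V_conj (g : Γ) (hg : σ g ∈ GN (AA f)) {r r' : ℕ} (hX : ∀ x ∈ GX (AA f) rel r, σ g * x * (σ g)⁻¹ ∈ GX (AA f) rel r')
    {u : Γ} (hu : u ∈ VV σ r) : g * u * g⁻¹ ∈ VV σ r' :=
  LS_conj g (fun t ht => GT_nrm _ hg _ ht) hX hu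

/-- The commutator relations. -/
theorem V_PP [Finite Γ] : ∀ k s, k < s → s < 24 → PP (VV σ) 24 k s := by
  apply all_PP
  intro k s hks hs hP1 hP2
  refine PP_of_wit (T := GT (AA f)) (X := GX (AA f) rel) hE hks hs ?_ ?_ ?_ ?_ ?_ ?_ hP1 hP2 (wit_T hq3 hK hf hf2 hks hs)
  · exact fun r hr => V_map hE hq3 hK hf hf2 (by omega)
  · exact fun r hr => V_onto hE hq3 hK hf hf2 (by omega)
  · exact fun r hr => V_inj hE hq3 hK hf hf2 (by omega)
  · exact fun r hr => V_ab hE hq3 hK hf hf2 (by omega)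
  · intro g hg r hr u hu
    exact V_conj g (GT_le_GN hg) (fun x hx => GT_act hg hx) hu
  · intro x hx y hy
    exact GX_comm (A := AA f) (relT f) hks hs hx hy

omit hE hq3 hK hf hf2 in
theorem UF_map_V (hmap : ∀ r < 24, ∀ u ∈ VV σ r, σ u ∈ GX (AA f) rel r) {j : ℕ} {w : Γ} (hw : w ∈ UF (VV σ) 24 j) : σ w ∈ UF (GX (AA f) rel) 24 j := by
  unfold UF at hw
  induction hw using Subgroup.closure_induction with
  | mem x hx =>
    obtain ⟨l, h1, h2, h3⟩ := hx
    exact mem_UF h1 h2 (hmap l h2 x h3)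
  | one => simp [Subgroup.one_mem]
  | mul a b _ _ ha hb =>
    rw [map_mul]
    exact Subgroup.mul_mem _ ha hb
  | inv a _ ha =>
    rw [map_inv]
    exact Subgroup.inv_mem _ ha

/-- Injectivity on the positive part. -/
theorem V_injU [Finite Γ] : ∀ u ∈ UF (VV σ) 24 0, σ u = 1 → u = 1 := by
  refine UF_inj (V_PP hE hq3 hK hf hf2) (fun l hl => V_inj hE hq3 hK hf hf2 (by omega)) ?_ 0
  intro l hl x hx w hw e
  have h1 := V_map hE hq3 hK hf hf2 (by omega) x hx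
  have h2 := UF_map_V (σ := σ) (fun r hr => V_map hE hq3 hK hf hf2 (by omega)) hw
  exact GX_dis (relT f) hl h1 h2 e

end

end Cfsg.Agent.Lib.TwE6St
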