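import Cfsg.Agent.Lib.TwE6St.Base

/-!
# The monomial elements of `²E₆` and their action on the relative root groups
-/

set_option autoImplicit false
set_option linter.unusedSectionVars false
set_option linter.unusedVariables false

namespace Cfsg.Agent.Lib.TwE6St

open Cfsg Cfsg.Lie Cfsg.Agent.Lib.Chev Cfsg.Agent.Lib.Chev.TwE6 Cfsg.Agent.Lib.TwStem Equiv
open scoped commutatorElement

variable {K : Type*} [Field K] [Fintype K] {f : K ≃+* K}

/-- The representative of a node of `F₄`. -/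
def repN : ℕ → ℕ
  | 0 => 1
  | 1 => 3
  | 2 => 2
  | _ => 0

theorem repN_lt (i : ℕ) : repN i < chevE6.rank := by
  match i with
  | 0 => decide +kernel
  | 1 => decide +kernel
  | 2 => decide +kernel
  | (_ + 3) =>
    show (0 : ℕ) < chevE6.rank
    decide +kernel

variable (f) in
/-- The monomial element of a node. -/
noncomputable def nA (i : ℕ) : ↥(AA f).G1 := ⟨((AA f).nC (repN i)).1, (AA f).nC_mem _ (repN_lt i)⟩

theorem nA_mono (i : ℕ) : (nA f i).1 ∈ chevE6.monomialSubgroup K := ((AA f).nC (repN i)).2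

theorem nA_mem (i : ℕ) : nA f i ∈ GN (AA f) := mem_GN.2 (nA_mono i)

/-- The action on relative roots. -/
noncomputable def sT (i r : ℕ) : ℕ := rel (wAct TabE6.X (J (repN i)) (repR r))

theorem rhoN_nC {i : ℕ} (hi : i < chevE6.rank) (r : Fin chevE6.nroots) :
    ((hF.rhoN K ((AA f).nC i) r : Fin chevE6.nroots) : ℕ) = wAct TabE6.X (J i) r := by
  show ((hF.rhoN K (((J i).map (hF.nNt K)).prod) r : Fin chevE6.nroots) : ℕ) = _
  rw [hF.rhoN_prod_nNt, hF.prod_wPt_apply (fun j hj => (sc f).mem_J_lt hi hj)]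

/-- The action of a monomial element of the group, both ways. -/
theorem conj_fwd {a : ↥(AA f).G1} (ha : a.1 ∈ chevE6.monomialSubgroup K) (q : Fin chevE6.nroots)
    {x : ↥(AA f).G1} (hx : x ∈ GX (AA f) rel (rel q)) :
    a * x * a⁻¹ ∈ GX (AA f) rel (rel (hF.rhoN K ⟨a.1, ha⟩ q)) :=
  GN_act' (relT f) ha q hx

theorem conj_bwd {a : ↥(AA f).G1} (ha : a.1 ∈ chevE6.monomialSubgroup K) (q : Fin chevE6.nroots)
    {x : ↥(AA f).G1} (hx : x ∈ GX (AA f) rel (rel (hF.rhoN K ⟨a.1, ha⟩ q))) :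
    a⁻¹ * x * a ∈ GX (AA f) rel (rel q) := by
  have ha' : (a⁻¹).1 ∈ chevE6.monomialSubgroup K := Subgroup.inv_mem _ ha
  have h1 := conj_fwd ha' _ hx
  have h2 : hF.rhoN K ⟨(a⁻¹).1, ha'⟩ (hF.rhoN K ⟨a.1, ha⟩ q) = q := by
    have e : (⟨(a⁻¹).1, ha'⟩ : ↥(chevE6.monomialSubgroup K)) = (⟨a.1, ha⟩ : ↥(chevE6.monomialSubgroup K))⁻¹ := rfl
    rw [e, map_inv]
    simp
  rw [h2, inv_inv] at h1
  exact h1

theorem sT_tab : ∀ i < 4, ∀ r < 48, sT i r < 48 := by decide +kernel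

theorem sT_rep : ∀ i < 4, ∀ r < 48, wAct TabE6.X (J (repN i)) (repR r) < chevE6.nroots := by decide +kernel

/-- The action of a reflection on the relative root groups. -/
theorem nA_act (i : ℕ) {r : ℕ} (hr : r < 48) {x : ↥(AA f).G1} (hx : x ∈ GX (AA f) rel r) :
    nA f i * x * (nA f i)⁻¹ ∈ GX (AA f) rel (sT i r) := by
  obtain ⟨h1, h2⟩ := rel_rep r hr
  have hx' : x ∈ GX (AA f) rel (rel ((⟨repR r, h1⟩ : Fin chevE6.nroots) : ℕ)) := by
    rw [show ((⟨repR r, h1⟩ : Fin chevE6.nroots) : ℕ) = repR r from rfl, h2]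
    exact hx
  have h3 := conj_fwd (nA_mono i) ⟨repR r, h1⟩ hx'
  have h4 : (⟨(nA f i).1, nA_mono i⟩ : ↥(chevE6.monomialSubgroup K)) = (AA f).nC (repN i) := rfl
  rw [h4, rhoN_nC (f := f) (repN_lt i)] at h3
  exact h3

/-- The inverse action of a reflection on the relative root groups. -/
theorem nA_act' (i : ℕ) {r : ℕ} (hr : r < 48) {x : ↥(AA f).G1} (hx : x ∈ GX (AA f) rel (sT i r)) :
    (nA f i)⁻¹ * x * nA f i ∈ GX (AA f) rel r := by
  obtain ⟨h1, h2⟩ := rel_rep r hr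
  have h4 : (⟨(nA f i).1, nA_mono i⟩ : ↥(chevE6.monomialSubgroup K)) = (AA f).nC (repN i) := rfl
  have h3 := conj_bwd (nA_mono i) ⟨repR r, h1⟩ (x := x) (by
    rw [h4, rhoN_nC (f := f) (repN_lt i)]
    exact hx)
  rw [show ((⟨repR r, h1⟩ : Fin chevE6.nroots) : ℕ) = repR r from rfl, h2] at h3
  exact h3

theorem nA_sq (i : ℕ) : nA f i * nA f i ∈ GT (AA f) := by
  rw [mem_GT]
  exact (AA f).nC_sq_mem (repN_lt i)

theorem t_swap1 : ∀ i < 4, sT i i = 24 + i := by decide +kernel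
theorem t_swap2 : ∀ i < 4, sT i (24 + i) = i := by decide +kernel
theorem t_pos : ∀ i < 4, ∀ r < 24, r ≠ i → sT i r < 24 := by decide +kernel

/-- The dichotomy. -/
theorem dich_A {a : ↥(AA f).G1} (ha : a ∈ GN (AA f)) {i : ℕ} (hi : i < 4) :
    ∃ k < 24, (∀ x ∈ GX (AA f) rel i, a⁻¹ * x * a ∈ GX (AA f) rel k) ∨
      (∀ x ∈ GX (AA f) rel (24 + i), a⁻¹ * x * a ∈ GX (AA f) rel k) := by
  have ha' : (a⁻¹).1 ∈ chevE6.monomialSubgroup K := Subgroup.inv_mem _ (mem_GN.1 ha)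
  have hi48 : i < 48 := by omega
  obtain ⟨h1, h2⟩ := rel_rep i hi48
  let q : Fin chevE6.nroots := ⟨repR i, h1⟩
  let w := hF.rhoN K ⟨(a⁻¹).1, ha'⟩
  have hc : ∀ x, a⁻¹ * x * a = a⁻¹ * x * (a⁻¹)⁻¹ := by
    intro x
    rw [inv_inv]
  have hpos : RootE6T.R.N ≤ repR i := by
    rw [rel_pos _ h1, h2]
    omega
  by_cases hw : RootE6T.R.N ≤ ((w q : Fin chevE6.nroots) : ℕ)
  · refine ⟨rel (w q), (rel_pos _ (w q).2).1 hw, Or.inl ?_⟩
    intro x hx
    rw [hc]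
    refine conj_fwd ha' q (x := x) ?_
    show x ∈ GX (AA f) rel (rel (repR i))
    rw [h2]
    exact hx
  · have hneg : rel (chevE6.neg (repR i)) = 24 + i := by
      rw [rel_neg _ h1 hpos, h2]
    let q' : Fin chevE6.nroots := hF.negF q
    have e1 : w q' = hF.negF (w q) := hF.neg_comm (hF.rhoN_mem_Wk _) q
    have hw' : RootE6T.R.N ≤ ((w q' : Fin chevE6.nroots) : ℕ) := by
      rw [e1]
      exact hF.neg_ge_N (not_le.1 hw)
    refine ⟨rel (w q'), (rel_pos _ (w q').2).1 hw', Or.inr ?_⟩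
    intro x hx
    rw [hc]
    refine conj_fwd ha' q' (x := x) ?_
    show x ∈ GX (AA f) rel (rel (chevE6.neg (repR i)))
    rw [hneg]
    exact hx

/-! ### The generators -/

theorem iter_rel (k : ℕ) {r : ℕ} (hr : r < chevE6.nroots) : (TwTabE6.S.r)^[k] r < chevE6.nroots ∧ rel ((TwTabE6.S.r)^[k] r) = rel r := by
  induction k with
  | zero => exact ⟨hr, rfl⟩
  | succ k ih =>
    rw [Function.iterate_succ_apply']
    exact ⟨TwTabE6.ok.r_lt _ ih.1, (rel_rho _ ih.1).trans ih.2⟩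

/-- A cyclic word lies in the root closure. -/
theorem cw_mem_RO {r₀ d : ℕ} (hr : r₀ < chevE6.nroots) (t : K) :
    hF.c.wordG (cw TwTabE6.S.r f r₀ d t) ∈ RO chevE6 K rel (rel r₀) := by
  apply hF.c.wordG_mem
  intro p hp
  simp only [cw, List.mem_map] at hp
  obtain ⟨k, _, rfl⟩ := hp
  obtain ⟨h1, h2⟩ := iter_rel k hr
  exact hF.xG_mem_rootClosure ⟨h1, h2⟩ _

theorem A_tab : ∀ i < 6, TwE6.A i < 6 ∧ rel (chevE6.simple (TwE6.A i)) < 4 ∧ rel (chevE6.neg (chevE6.simple (TwE6.A i))) = 24 + rel (chevE6.simple (TwE6.A i)) ∧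
    chevE6.simple (TwE6.A i) < chevE6.nroots ∧ chevE6.neg (chevE6.simple (TwE6.A i)) < chevE6.nroots := by
  decide +kernel

/-- The generators are in the relative root groups. -/
theorem gen_pos {i : ℕ} (hi : i < chevE6.rank) {t : K} (ht : f^[dd i] t = t) :
    ∃ h : hF.c.wordG (cw TwTabE6.S.r f (chevE6.simple (TwE6.A i)) (dd i) t) ∈ (AA f).G1,
      (⟨_, h⟩ : ↥(AA f).G1) ∈ GX (AA f) rel (rel (chevE6.simple (TwE6.A i))) := by
  have h1 : hF.c.wordG (cw TwTabE6.S.r f (chevE6.simple (TwE6.A i)) (dd i) t) ∈ (sc f).G1 :=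
    Subgroup.subset_closure ⟨i, hi, t, ht, Or.inl rfl⟩
  refine ⟨h1, ?_⟩
  rw [mem_GX]
  exact ⟨(sc f).G1_le_Fx h1, cw_mem_RO (A_tab i hi).2.2.2.1 t⟩

theorem gen_neg {i : ℕ} (hi : i < chevE6.rank) {t : K} (ht : f^[dd i] t = t) :
    ∃ h : hF.c.wordG (cw TwTabE6.S.r f (chevE6.neg (chevE6.simple (TwE6.A i))) (dd i) t) ∈ (AA f).G1,
      (⟨_, h⟩ : ↥(AA f).G1) ∈ GX (AA f) rel (24 + rel (chevE6.simple (TwE6.A i))) := by
  have h1 : hF.c.wordG (cw TwTabE6.S.r f (chevE6.neg (chevE6.simple (TwE6.A i))) (dd i) t) ∈ (sc f).G1 :=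
    Subgroup.subset_closure ⟨i, hi, t, ht, Or.inr rfl⟩
  refine ⟨h1, ?_⟩
  rw [mem_GX]
  refine ⟨(sc f).G1_le_Fx h1, ?_⟩
  rw [← (A_tab i hi).2.2.1]
  exact cw_mem_RO (A_tab i hi).2.2.2.2 t

/-- The group is generated by the simple relative root groups. -/
theorem gen_A (g : ↥(AA f).G1) : g ∈ Subgroup.closure {x | ∃ i < 4, x ∈ GX (AA f) rel i ∨ x ∈ GX (AA f) rel (24 + i)} := by
  obtain ⟨g, hg⟩ := g
  have key : ∀ (g : GL chevE6.Idx K) (hg' : g ∈ Subgroup.closure (scGens (hF := hF) f TwTabE6.S.r TwE6.A dd)),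
      (⟨g, hg'⟩ : ↥(AA f).G1) ∈ Subgroup.closure {x | ∃ i < 4, x ∈ GX (AA f) rel i ∨ x ∈ GX (AA f) rel (24 + i)} := by
    intro g hg'
    induction hg' using Subgroup.closure_induction with
    | mem x hx =>
      obtain ⟨i, hi, t, ht, rfl | rfl⟩ := hx
      · obtain ⟨h1, h2⟩ := gen_pos (f := f) hi ht
        exact Subgroup.subset_closure ⟨_, (A_tab i hi).2.1, Or.inl h2⟩
      · obtain ⟨h1, h2⟩ := gen_neg (f := f) hi ht
        exact Subgroup.subset_closure ⟨_, (A_tab i hi).2.1, Or.inr h2⟩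
    | one => exact Subgroup.one_mem _
    | mul a b _ _ ha hb => exact Subgroup.mul_mem _ ha hb
    | inv a _ ha => exact Subgroup.inv_mem _ ha
  exact key g hg

end Cfsg.Agent.Lib.TwE6St
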