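import Cfsg.Agent.Lib.TwE6St.LiftV
import Cfsg.Agent.Lib.TwStem.Tor

/-!
# `²E₆`: the table of the relative roots and the rank one classes
-/

set_option autoImplicit false
set_option linter.unusedSectionVars false
set_option linter.unusedVariables false
set_option linter.unusedSimpArgs false

namespace Cfsg.Agent.Lib.TwE6St

open Cfsg Cfsg.Lie Cfsg.Agent.Lib.Chev Cfsg.Agent.Lib.Chev.TwE6 Cfsg.Agent.Lib.TwStem Equiv
open Cfsg.Agent.Lib.SL2Core Cfsg.Agent.Lib.SL2Bor Cfsg.Agent.Lib.StK Cfsg.Agent.Lib.ChevLift Cfsg.Agent.Lib.ChevLift.RD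
open scoped commutatorElement

variable {K : Type*} [Field K] [Fintype K] {f : K ≃+* K}

theorem rtab (f : K ≃+* K) : RTab (sc f) rel repR 4 24 repN where
  R := relT f
  lm := by decide
  rp_lt := by decide +kernel
  rp_rel := by decide +kernel
  B_lt := fun a _ => repN_lt a
  cl_pos := by
    have h1 : ∀ a < 4, ∀ r < chevE6.nroots, rel r = a → r ∈ (J (repN a)).map chevE6.simple := by decide +kernel
    have h2 : ∀ a < 4, ∀ r ∈ (J (repN a)).map chevE6.simple, r < chevE6.nroots ∧ rel r = a := by decide +kernel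
    intro a ha r
    exact ⟨fun h => h1 a ha r h.1 h.2, h2 a ha r⟩
  cls := by decide +kernel
  swap1 := t_swap1
  swap2 := t_swap2
  pos := t_pos

/-- The torus parameters: `a` for the class `{1}`, `b` for `{3}`, `l` for `{2, 4}`, `s` for `{0, 5}`. -/
noncomputable def cE (f : K ≃+* K) (a b l s : Kˣ) : Fin chevE6.rank → Kˣ := fun j =>
  if (j : ℕ) = 0 then s else if (j : ℕ) = 1 then a else if (j : ℕ) = 2 then l else if (j : ℕ) = 3 then b
  else if (j : ℕ) = 4 then unitsF f l else unitsF f s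

/-- The units of the fixed subfield. -/
noncomputable def uS {d : ℕ} (c : ↥(Sb f d)) (hc : c ≠ 0) : Kˣ := Units.mk0 c.1 (fun e => hc (Subtype.ext e))

theorem uS_fix {c : ↥(Sb f 1)} (hc : c ≠ 0) : unitsF f (uS c hc) = uS c hc := by
  apply Units.ext
  exact mem_Sb.1 c.2

theorem hG_single (i : Fin chevE6.rank) (u : Kˣ) : hF.c.hG (chevE6.simple i) (u : K) = tor RootE6T.R chevE6 (Pi.mulSingle i u) :=
  hF.hSimple_eq_tor i u

theorem cE_fixed (hf2 : ∀ t, f^[2] t = t) {a b : Kˣ} (ha : unitsF f a = a) (hb : unitsF f b = b) (l s : Kˣ) :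
    (sc f).FTh (cE f a b l s) = cE f a b l s := by
  rw [fixed_iff]
  refine ⟨?_, ?_, ?_, ?_, ?_, ?_⟩ <;> simp [cE, ha, hb, unitsF2 hf2]

theorem D_class0 {φ : SL2 ↥(Sb f (dd 1)) →* GL chevE6.Idx K} (P : ClassHom (sc f) 1 φ)
    (c : ↥(Sb f (dd 1))) (hc : c ≠ 0) : φ (wd c * wd (-1)) = tor RootE6T.R chevE6 (cE f (uS c hc) 1 1 1) := by
  rw [P.hd]
  show ((List.range 1).map fun k => hF.c.hG (chevE6.simple (TwTabE6.S.p^[k] 1)) (f^[k] c.1)).prod = _
  have e1 : (List.range 1) = [0] := rfl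
  rw [e1]
  simp only [List.map_cons, List.map_nil, List.prod_cons, List.prod_nil, mul_one, Function.iterate_zero, id]
  refine (hG_single (K := K) ⟨1, by decide⟩ (uS c hc)).trans ?_
  congr 1
  funext j
  revert j
  refine fin6_cases ?_ ?_ ?_ ?_ ?_ ?_ <;> simp [cE, Pi.mulSingle_apply, Fin.ext_iff]

theorem D_class1 {φ : SL2 ↥(Sb f (dd 3)) →* GL chevE6.Idx K} (P : ClassHom (sc f) 3 φ)
    (c : ↥(Sb f (dd 3))) (hc : c ≠ 0) : φ (wd c * wd (-1)) = tor RootE6T.R chevE6 (cE f 1 (uS c hc) 1 1) := by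
  rw [P.hd]
  show ((List.range 1).map fun k => hF.c.hG (chevE6.simple (TwTabE6.S.p^[k] 3)) (f^[k] c.1)).prod = _
  have e1 : (List.range 1) = [0] := rfl
  rw [e1]
  simp only [List.map_cons, List.map_nil, List.prod_cons, List.prod_nil, mul_one, Function.iterate_zero, id]
  refine (hG_single (K := K) ⟨3, by decide⟩ (uS c hc)).trans ?_
  congr 1
  funext j
  revert j
  refine fin6_cases ?_ ?_ ?_ ?_ ?_ ?_ <;> simp [cE, Pi.mulSingle_apply, Fin.ext_iff]

theorem D_class2 {φ : SL2 ↥(Sb f (dd 2)) →* GL chevE6.Idx K} (P : ClassHom (sc f) 2 φ)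
    (c : ↥(Sb f (dd 2))) (hc : c ≠ 0) : φ (wd c * wd (-1)) = tor RootE6T.R chevE6 (cE f 1 1 (uS c hc) 1) := by
  rw [P.hd]
  have e0 : TwTabE6.S.p 2 = 4 := by decide +kernel
  show ((List.range 2).map fun k => hF.c.hG (chevE6.simple (TwTabE6.S.p^[k] 2)) (f^[k] c.1)).prod = _
  have e1 : (List.range 2) = [0, 1] := rfl
  rw [e1]
  simp only [List.map_cons, List.map_nil, List.prod_cons, List.prod_nil, mul_one, Function.iterate_zero, id, Function.iterate_succ, Function.comp]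
  rw [e0]
  have h0 := hG_single (K := K) ⟨2, by decide⟩ (uS c hc)
  have h2 := hG_single (K := K) ⟨4, by decide⟩ (unitsF f (uS c hc))
  refine (congrArg₂ (· * ·) h0 h2).trans ?_
  rw [tor_mul]
  congr 1
  funext j
  revert j
  refine fin6_cases ?_ ?_ ?_ ?_ ?_ ?_ <;> simp [cE, Pi.mulSingle_apply, Fin.ext_iff]

theorem D_class3 {φ : SL2 ↥(Sb f (dd 0)) →* GL chevE6.Idx K} (P : ClassHom (sc f) 0 φ)
    (c : ↥(Sb f (dd 0))) (hc : c ≠ 0) : φ (wd c * wd (-1)) = tor RootE6T.R chevE6 (cE f 1 1 1 (uS c hc)) := by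
  rw [P.hd]
  have e0 : TwTabE6.S.p 0 = 5 := by decide +kernel
  show ((List.range 2).map fun k => hF.c.hG (chevE6.simple (TwTabE6.S.p^[k] 0)) (f^[k] c.1)).prod = _
  have e1 : (List.range 2) = [0, 1] := rfl
  rw [e1]
  simp only [List.map_cons, List.map_nil, List.prod_cons, List.prod_nil, mul_one, Function.iterate_zero, id, Function.iterate_succ, Function.comp]
  rw [e0]
  have h0 := hG_single (K := K) ⟨0, by decide⟩ (uS c hc)
  have h2 := hG_single (K := K) ⟨5, by decide⟩ (unitsF f (uS c hc))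
  refine (congrArg₂ (· * ·) h0 h2).trans ?_
  rw [tor_mul]
  congr 1
  funext j
  revert j
  refine fin6_cases ?_ ?_ ?_ ?_ ?_ ?_ <;> simp [cE, Pi.mulSingle_apply, Fin.ext_iff]

/-- The kernel of the torus, in the parameters. -/
theorem cE_one (hf2 : ∀ t, f^[2] t = t) {a b l s : Kˣ} (ha : unitsF f a = a) (hb : unitsF f b = b)
    (h1 : tor RootE6T.R chevE6 (cE f a b l s) = (1 : GL chevE6.Idx K)) :
    a = 1 ∧ b = 1 ∧ l = s ^ 2 ∧ s ^ 3 = 1 ∧ unitsF f s = s⁻¹ := by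
  obtain ⟨d1, d2, d3, d4, d5, d6, d7⟩ := ker_data _ (cE_fixed hf2 ha hb l s) h1
  simp only [cE] at d1 d2 d3 d6 d7
  simp at d1 d2 d3 d6 d7
  exact ⟨d1, d3, d2, d6, d7⟩

theorem tor_cE_inv {s : Kˣ} (h3 : s ^ 3 = 1) (hs : unitsF f s = s⁻¹) :
    tor RootE6T.R chevE6 (cE f 1 1 (s ^ 2) s) = (1 : GL chevE6.Idx K) := by
  have e4 : s ^ 2 * s ^ 2 = s := by
    rw [← pow_add]
    show s ^ (3 + 1) = s
    rw [pow_succ, h3, one_mul]
  rw [tor_one_iff]
  refine ⟨?_, ?_, ?_, ?_, ?_, ?_⟩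
  · simp [cE]
  · simp [cE]
  · simp [cE, sq (s ^ 2), e4]
  · simp [cE, hs]
  · simp [cE, hs, sq (s ^ 2), e4]
  · simp [cE, hs]

theorem hker_short {i : ℕ} (hf2 : ∀ t, f^[2] t = t) {φ : SL2 ↥(Sb f (dd i)) →* GL chevE6.Idx K}
    (hD : ∀ (c : ↥(Sb f (dd i))) (hc : c ≠ 0), φ (wd c * wd (-1)) = tor RootE6T.R chevE6 (cE f 1 1 (uS c hc) 1) ∨
      φ (wd c * wd (-1)) = tor RootE6T.R chevE6 (cE f 1 1 1 (uS c hc)))
    (c : ↥(Sb f (dd i))) (hc : c ≠ 0) (e : φ (wd c * wd (-1)) = 1) : c = 1 := by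
  rcases hD c hc with h | h
  · rw [h] at e
    obtain ⟨-, -, d2, -, -⟩ := cE_one hf2 (map_one _) (map_one _) e
    apply Subtype.ext
    have := congrArg Units.val d2
    simpa [uS] using this
  · rw [h] at e
    obtain ⟨-, -, d1, d2, -⟩ := cE_one hf2 (map_one _) (map_one _) e
    apply Subtype.ext
    have h2 : uS c hc = 1 := by
      have h3 : uS c hc = uS c hc ^ 3 * ((uS c hc) ^ 2)⁻¹ := by
        rw [pow_succ]
        simp
      rw [h3, d2, ← d1]
      simp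
    have := congrArg Units.val h2
    simpa [uS] using this

end Cfsg.Agent.Lib.TwE6St
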